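import Cfsg.Agent.CoprimeAction.Abelian
import Cfsg.Agent.Components.Cores
import Cfsg.Agent.Uniqueness.Trans

/-!
The centralizers of hyperplanes, and the fixed points of an element permuting the hyperplanes.
-/

set_option autoImplicit false
set_option linter.unusedSectionVars false
set_option linter.style.haveILetI false

namespace CfsgLib.PLengthComm

open scoped commutatorElement

universe u

/-- An elementary abelian group acting coprimely on an abelian group without fixed points. -/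
structure FpfAction {G : Type u} [Group G] (q : ℕ) (V A : Subgroup G) : Prop where
  commV : IsMulCommutative V
  commA : IsMulCommutative A
  le_normalizer : A ≤ Subgroup.normalizer (V : Set G)
  coprime : (Nat.card A).Coprime (Nat.card V)
  fpf : V ⊓ Subgroup.centralizer (A : Set G) = ⊥

variable {G : Type u} [Group G] [Finite G] {q : ℕ} [hq : Fact q.Prime] {V A : Subgroup G}

theorem sup_eq_of_hyperplanes {I B : Subgroup G} (hI : I ≤ A) (hIi : I.relIndex A = q)
    (hB : B ≤ A) (hBi : B.relIndex A = q) (hne : I ≠ B) : I ⊔ B = A := by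
  have h1 := Subgroup.relIndex_mul_relIndex I (I ⊔ B) A le_sup_left (sup_le hI hB)
  rw [hIi] at h1
  rcases hq.out.eq_one_or_self_of_dvd _ (Dvd.intro _ h1) with h | h
  · have hBI : B ≤ I := le_sup_right.trans (Subgroup.relIndex_eq_one.1 h)
    have h2 := Subgroup.relIndex_mul_relIndex B I A hBI hI
    rw [hIi, hBi] at h2
    exact absurd (le_antisymm (Subgroup.relIndex_eq_one.1 (Nat.eq_of_mul_eq_mul_right hq.out.pos
      (h2.trans (one_mul q).symm))) hBI) hne
  · rw [h] at h1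
    exact le_antisymm (sup_le hI hB)
      (Subgroup.relIndex_eq_one.1 (Nat.eq_of_mul_eq_mul_left hq.out.pos (h1.trans (mul_one q).symm)))

theorem component_le_commutator (h : FpfAction q V A) {I B : Subgroup G} (hI : I ≤ A) (hIi : I.relIndex A = q)
    (hB : B ≤ A) (hBi : B.relIndex A = q) (hne : I ≠ B) :
    V ⊓ Subgroup.centralizer (I : Set G) ≤ ⁅V, B⁆ := by
  haveI := h.commV
  haveI := h.commA
  set W := V ⊓ Subgroup.centralizer (I : Set G) with hW
  have hAC : A ≤ Subgroup.centralizer (I : Set G) := (Subgroup.le_centralizer A).trans (Subgroup.centralizer_le hI)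
  have hBW : B ≤ Subgroup.normalizer (W : Set G) :=
    hB.trans (Signalizer.le_normalizer_inf h.le_normalizer (hAC.trans Subgroup.le_normalizer))
  haveI : IsMulCommutative W :=
    ⟨⟨fun a b => Subtype.ext (setLike_mul_comm (show (a : G) ∈ V from a.2.1) (show (b : G) ∈ V from b.2.1))⟩⟩
  have hbot : W ⊓ Subgroup.centralizer (B : Set G) = ⊥ := by
    rw [eq_bot_iff, ← h.fpf]
    refine fun x hx => ⟨hx.1.1, ?_⟩
    rw [← sup_eq_of_hyperplanes hI hIi hB hBi hne]
    exact Subgroup.le_centralizer_iff.1 (sup_le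
      (Subgroup.le_centralizer_iff.1 (Subgroup.zpowers_le.2 hx.1.2))
      (Subgroup.le_centralizer_iff.1 (Subgroup.zpowers_le.2 hx.2))) (Subgroup.mem_zpowers x)
  have hsplit := CoprimeAction.commutator_sup_centralizer hBW
    (Nat.Coprime.coprime_dvd_left (Subgroup.card_dvd_of_le hB)
      (h.coprime.coprime_dvd_right (Subgroup.card_dvd_of_le inf_le_left)))
    (Or.inr (Group.isSolvable_of_comm mul_comm'))
  rw [hbot, sup_bot_eq] at hsplit
  exact hsplit.ge.trans (Subgroup.commutator_mono inf_le_left le_rfl)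

theorem component_inf_commutator (h : FpfAction q V A) {B : Subgroup G} (hB : B ≤ A) :
    (V ⊓ Subgroup.centralizer (B : Set G)) ⊓ ⁅V, B⁆ = ⊥ := by
  haveI := h.commV
  exact CoprimeAction.centralizer_inf_commutator_eq_bot (hB.trans h.le_normalizer)
    (Nat.Coprime.coprime_dvd_left (Subgroup.card_dvd_of_le hB) h.coprime)

/-- The product of the conjugates of a vector under `x` of order `r`. -/
theorem exists_fixed_product (hV : IsMulCommutative V) {x : G} (hx : x ∈ Subgroup.normalizer (V : Set G)) {r : ℕ}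
    (hr : 0 < r) (hxr : x ^ r = 1) {v : G} (hv : v ∈ V) :
    ∃ w ∈ V ⊓ Subgroup.centralizer ({x} : Set G), ∀ T : Subgroup G,
      (∀ i : ℕ, i + 1 < r → x ^ (i + 1) * v * (x ^ (i + 1))⁻¹ ∈ T) → w * v⁻¹ ∈ T := by
  letI : CommGroup V := { (inferInstance : Group V) with mul_comm := fun a b => hV.is_comm.comm a b }
  have hmem : ∀ i : ℕ, x ^ i * v * (x ^ i)⁻¹ ∈ V := fun i =>
    (Subgroup.mem_normalizer_iff.1 ((Subgroup.normalizer (V : Set G)).pow_mem hx i) v).1 hv
  let f : ℕ → V := fun i => ⟨_, hmem i⟩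
  let σ : V →* V :=
    { toFun := fun z => ⟨x * z * x⁻¹, (Subgroup.mem_normalizer_iff.1 hx _).1 z.2⟩
      map_one' := Subtype.ext (by simp)
      map_mul' := fun a b => Subtype.ext (by simp [mul_assoc]) }
  have hσ : ∀ i, σ (f i) = f (i + 1) := fun i => Subtype.ext (by
    show x * (x ^ i * v * (x ^ i)⁻¹) * x⁻¹ = x ^ (i + 1) * v * (x ^ (i + 1))⁻¹
    rw [pow_succ']
    group)
  have hf0 : f r = f 0 := Subtype.ext (by simp [f, hxr])
  obtain ⟨n, rfl⟩ : ∃ n, r = n + 1 := ⟨r - 1, by omega⟩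
  set w : V := ∏ i ∈ Finset.range (n + 1), f i with hw
  have hfix : σ w = w := by
    rw [hw, map_prod, Finset.prod_congr rfl (fun i _ => hσ i), Finset.prod_range_succ' f n,
      Finset.prod_range_succ (fun i => f (i + 1)) n, hf0]
  refine ⟨w, ⟨w.2, Subgroup.mem_centralizer_singleton_iff.2 ?_⟩, fun T hrest => ?_⟩
  · have he : x * (w : G) * x⁻¹ = w := congrArg Subtype.val hfix
    calc (w : G) * x = x * (w : G) * x⁻¹ * x := by rw [he]
      _ = x * w := by group
  · rw [hw, Finset.prod_range_succ' f n]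
    have hsub : (∏ i ∈ Finset.range n, f (i + 1)) ∈ T.subgroupOf V :=
      Subgroup.prod_mem _ fun i hi => Subgroup.mem_subgroupOf.2 (hrest i (by have := Finset.mem_range.1 hi; omega))
    rw [Subgroup.mem_subgroupOf] at hsub
    show ((_ : V) : G) * ((f 0 : V) : G) * v⁻¹ ∈ T
    simpa [f] using hsub

theorem eq_of_mul_inv_mem (h : FpfAction q V A) {B : Subgroup G} (hB : B ≤ A) {u v w : G}
    (hu : u ∈ V ⊓ Subgroup.centralizer (B : Set G)) (hv : v ∈ V ⊓ Subgroup.centralizer (B : Set G))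
    (hwu : w * u⁻¹ ∈ ⁅V, B⁆) (hwv : w * v⁻¹ ∈ ⁅V, B⁆) : u = v := by
  have h1 : u * v⁻¹ ∈ (⊥ : Subgroup G) := by
    rw [← component_inf_commutator h hB]
    refine ⟨Subgroup.mul_mem _ hu (Subgroup.inv_mem _ hv), ?_⟩
    rw [show u * v⁻¹ = (w * u⁻¹)⁻¹ * (w * v⁻¹) by group]
    exact Subgroup.mul_mem _ (Subgroup.inv_mem _ hwu) hwv
  exact mul_inv_eq_one.1 (Subgroup.mem_bot.1 h1)

/-- Conjugation by a power of `x` carries the component of `I` to the one of its image. -/
theorem conj_mem_component {x : G} (hxV : x ∈ Subgroup.normalizer (V : Set G)) {I : Subgroup G} {v : G}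
    (hv : v ∈ V ⊓ Subgroup.centralizer (I : Set G)) (i : ℕ) :
    x ^ i * v * (x ^ i)⁻¹ ∈ V ⊓ Subgroup.centralizer (I.map (MulAut.conj (x ^ i)).toMonoidHom : Set G) := by
  refine ⟨(Subgroup.mem_normalizer_iff.1 ((Subgroup.normalizer (V : Set G)).pow_mem hxV i) v).1 hv.1,
    Subgroup.mem_centralizer_iff.2 ?_⟩
  rintro _ ⟨y, hy, rfl⟩
  have h1 := congrArg (MulAut.conj (x ^ i)) (Subgroup.mem_centralizer_iff.1 hv.2 y hy)
  rw [map_mul, map_mul] at h1
  exact h1

section Moved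

variable {p : ℕ} [hp : Fact p.Prime] {x : G} {r : ℕ}

theorem map_hyperplane (hxA : x ∈ Subgroup.normalizer (A : Set G)) {I : Subgroup G} (hI : I ≤ A)
    (hIi : I.relIndex A = q) (i : ℕ) :
    I.map (MulAut.conj (x ^ i)).toMonoidHom ≤ A ∧ (I.map (MulAut.conj (x ^ i)).toMonoidHom).relIndex A = q := by
  have hA : A.map (MulAut.conj (x ^ i)).toMonoidHom = A :=
    Subgroup.mem_normalizer_iff_map_conj_eq.1 ((Subgroup.normalizer (A : Set G)).pow_mem hxA i)
  refine ⟨(Subgroup.map_mono hI).trans hA.le, ?_⟩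
  conv_lhs => arg 2; rw [← hA]
  rw [Subgroup.relIndex_map_map_of_injective _ _ (MulAut.conj (x ^ i)).injective, hIi]

theorem map_ne_of_moved (hr : r.Prime) (hxr : x ^ r = 1) {I : Subgroup G}
    (hm : x ∉ Subgroup.normalizer (I : Set G)) {i : ℕ} (h0 : 0 < i) (hi : i < r) :
    I.map (MulAut.conj (x ^ i)).toMonoidHom ≠ I := by
  intro h
  have h1 : x ^ i ∈ Subgroup.normalizer (I : Set G) := Subgroup.mem_normalizer_iff_map_conj_eq.2 h
  obtain ⟨j, hj⟩ := Nat.exists_mul_mod_eq_one_of_coprime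
    (Nat.Coprime.symm ((hr.coprime_iff_not_dvd).2 (Nat.not_dvd_of_pos_of_lt h0 hi))) hr.one_lt
  refine hm ?_
  have h2 : x = (x ^ i) ^ j := by
    rw [← pow_mul, ← Nat.div_add_mod (i * j) r, hj.2, pow_add, pow_mul, hxr, one_pow, one_mul, pow_one]
  rw [h2]
  exact Subgroup.pow_mem _ h1 j

variable (h : FpfAction q V A) (hxA : x ∈ Subgroup.normalizer (A : Set G))
  (hxV : x ∈ Subgroup.normalizer (V : Set G)) (hr : r.Prime) (hxr : x ^ r = 1)
  (hVp : IsPGroup p V) (hle : Nat.card ↥(V ⊓ Subgroup.centralizer ({x} : Set G)) ≤ p)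

include h hxA hxV hr hxr hVp hle

theorem exists_fixed_of_moved {I : Subgroup G} (hI : I ≤ A) (hIi : I.relIndex A = q)
    (hm : x ∉ Subgroup.normalizer (I : Set G)) {v : G} (hv : v ∈ V ⊓ Subgroup.centralizer (I : Set G)) :
    ∃ w ∈ V ⊓ Subgroup.centralizer ({x} : Set G), w * v⁻¹ ∈ ⁅V, I⁆ := by
  obtain ⟨w, hw, hwT⟩ := exists_fixed_product h.commV hxV hr.pos hxr hv.1
  refine ⟨w, hw, hwT _ fun i hi => ?_⟩
  obtain ⟨h1, h2⟩ := map_hyperplane hxA hI hIi (i + 1)
  exact component_le_commutator h h1 h2 hI hIi (map_ne_of_moved hr hxr hm (Nat.succ_pos i) hi)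
    (conj_mem_component hxV hv (i + 1))

theorem card_component_of_moved {I : Subgroup G} (hI : I ≤ A) (hIi : I.relIndex A = q)
    (hm : x ∉ Subgroup.normalizer (I : Set G)) (hne : V ⊓ Subgroup.centralizer (I : Set G) ≠ ⊥) :
    Nat.card ↥(V ⊓ Subgroup.centralizer (I : Set G)) = p := by
  set E := V ⊓ Subgroup.centralizer (I : Set G) with hE
  choose w hw hwv using fun v : E => exists_fixed_of_moved h hxA hxV hr hxr hVp hle hI hIi hm v.2
  have hinj : Function.Injective fun v : E =>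
      (⟨w v, hw v⟩ : ↥(V ⊓ Subgroup.centralizer ({x} : Set G))) := fun a b hab => by
    have hwe : w a = w b := congrArg Subtype.val hab
    exact Subtype.ext (eq_of_mul_inv_mem h hI a.2 b.2 (hwv a) (hwe ▸ hwv b))
  have h1 : Nat.card E ≤ p := (Nat.card_le_card_of_injective _ hinj).trans hle
  have hEp : IsPGroup p E := hVp.to_le inf_le_left
  exact le_antisymm h1 (Nat.le_of_dvd Nat.card_pos (Uniq.dvd_card_of_ne_bot hEp hne))

theorem moved_same_orbit {I J : Subgroup G} (hI : I ≤ A) (hIi : I.relIndex A = q)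
    (hm : x ∉ Subgroup.normalizer (I : Set G)) (hne : V ⊓ Subgroup.centralizer (I : Set G) ≠ ⊥)
    (hJ : J ≤ A) (hJi : J.relIndex A = q) (hmJ : x ∉ Subgroup.normalizer (J : Set G))
    (hneJ : V ⊓ Subgroup.centralizer (J : Set G) ≠ ⊥) :
    ∃ i : ℕ, J.map (MulAut.conj (x ^ i)).toMonoidHom = I := by
  by_contra hno
  push Not at hno
  obtain ⟨⟨v, hv⟩, hv1⟩ := Subgroup.ne_bot_iff_exists_ne_one.1 hne
  obtain ⟨⟨u, hu⟩, hu1⟩ := Subgroup.ne_bot_iff_exists_ne_one.1 hneJ
  obtain ⟨wI, hwI, hwIv⟩ := exists_fixed_of_moved h hxA hxV hr hxr hVp hle hI hIi hm hv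
  obtain ⟨wJ, hwJ, hwJT⟩ := exists_fixed_product h.commV hxV hr.pos hxr hu.1
  have hwJI : wJ * u⁻¹ ∈ ⁅V, I⁆ := hwJT _ fun i _ => by
    obtain ⟨h1, h2⟩ := map_hyperplane hxA hJ hJi (i + 1)
    exact component_le_commutator h h1 h2 hI hIi (hno (i + 1)) (conj_mem_component hxV hu (i + 1))
  have hwJJ : wJ * u⁻¹ ∈ ⁅V, J⁆ := hwJT _ fun i hi => by
    obtain ⟨h1, h2⟩ := map_hyperplane hxA hJ hJi (i + 1)
    exact component_le_commutator h h1 h2 hJ hJi (map_ne_of_moved hr hxr hmJ (Nat.succ_pos i) hi)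
      (conj_mem_component hxV hu (i + 1))
  have huI : u ∈ ⁅V, I⁆ := component_le_commutator h hJ hJi hI hIi (fun e => hno 0 (by
    rw [pow_zero, map_one]; exact (Subgroup.map_id J).trans e)) hu
  -- a generator of the fixed points lies in `[V, I]`
  have hgen : ∃ g ∈ ⁅V, I⁆, g ∈ V ⊓ Subgroup.centralizer ({x} : Set G) ∧ g ≠ 1 := by
    refine ⟨wJ, by simpa using Subgroup.mul_mem _ hwJI huI, hwJ, fun e => hu1 (Subtype.ext ?_)⟩
    rw [e, one_mul, inv_mem_iff] at hwJJ
    exact Subgroup.mem_bot.1 (component_inf_commutator h hJ ▸ Subgroup.mem_inf.2 ⟨hu, hwJJ⟩)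
  obtain ⟨g, hgI, hgF, hg1⟩ := hgen
  have hF : Subgroup.zpowers g = V ⊓ Subgroup.centralizer ({x} : Set G) := by
    refine Subgroup.eq_of_le_of_card_ge (Subgroup.zpowers_le.2 hgF) (hle.trans (Nat.le_of_dvd Nat.card_pos ?_))
    exact Uniq.dvd_card_of_ne_bot (hVp.to_le (Subgroup.zpowers_le.2 hgF.1))
      (by rwa [Ne, Subgroup.zpowers_eq_bot])
  have hwI' : wI ∈ ⁅V, I⁆ := (hF.ge.trans (Subgroup.zpowers_le.2 hgI)) hwI
  have hvI : v ∈ (⊥ : Subgroup G) := by
    rw [← component_inf_commutator h hI]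
    refine ⟨hv, ?_⟩
    rw [show v = (wI * v⁻¹)⁻¹ * wI by group]
    exact Subgroup.mul_mem _ (Subgroup.inv_mem _ hwIv) hwI'
  exact hv1 (Subtype.ext (Subgroup.mem_bot.1 hvI))

end Moved

end CfsgLib.PLengthComm
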