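import Cfsg.Agent.PLengthComm.Basic
import Cfsg.Agent.PLengthComm.Orbit
import Cfsg.Agent.CoprimeAction.Hyperplane
import Cfsg.Agent.ExtraFpf.Reduce
import Cfsg.Agent.PGroup.Extraspecial
import Cfsg.Agent.PCore.AxB
import Cfsg.Agent.S1446

/-!
The final configuration of the theorem on the `p`-length of `[H, R]`.
-/

set_option autoImplicit false
set_option linter.unusedSectionVars false
set_option linter.style.haveILetI false

namespace CfsgLib.PLengthComm

open scoped commutatorElement Pointwise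

universe u

/-- The minimal configuration: `Q P ⟨x⟩` acting on `V`, with few fixed points of `x`. -/
structure Config {G : Type u} [Group G] (p q r : ℕ) (V Q P : Subgroup G) (x : G) : Prop where
  q_ne_p : q ≠ p
  r_prime : r.Prime
  r_ne_p : r ≠ p
  r_ne_q : r ≠ q
  r_ne_two : r ≠ 2
  commV : IsMulCommutative V
  powV : ∀ v ∈ V, v ^ p = 1
  pgroupP : IsPGroup p P
  qgroupQ : IsPGroup q Q
  ord_x : orderOf x = r
  Q_V : Q ≤ Subgroup.normalizer (V : Set G)
  P_V : P ≤ Subgroup.normalizer (V : Set G)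
  x_V : x ∈ Subgroup.normalizer (V : Set G)
  P_Q : P ≤ Subgroup.normalizer (Q : Set G)
  x_Q : x ∈ Subgroup.normalizer (Q : Set G)
  x_P : x ∈ Subgroup.normalizer (P : Set G)
  faith : ∀ y ∈ Q ⊔ P, y ∈ Subgroup.centralizer (V : Set G) → y = 1
  fpfQ : V ⊓ Subgroup.centralizer (Q : Set G) = ⊥
  comm : ⁅Q, P⁆ = Q
  Q_ne : Q ≠ ⊥
  derived_central : ⁅Q, Q⁆ ≤ Subgroup.centralizer (Q : Set G)
  derived_fix : P ≤ Subgroup.centralizer ((⁅Q, Q⁆ : Subgroup G) : Set G)
  pow_mem : ∀ y ∈ Q, y ^ q ∈ ⁅Q, Q⁆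
  cardC : Nat.card ↥(V ⊓ Subgroup.centralizer ({x} : Set G)) ≤ p
  fixP : P ⊓ Subgroup.centralizer ({x} : Set G) = ⊥
  cycQ : IsCyclic ↥(Q ⊓ Subgroup.centralizer ({x} : Set G))

variable {G : Type u} [Group G] [Finite G] {p q r : ℕ} [hp : Fact p.Prime] [hq : Fact q.Prime]
  {V Q P : Subgroup G} {x : G}

theorem centralizer_zpowers (x : G) :
    Subgroup.centralizer ((Subgroup.zpowers x : Subgroup G) : Set G) = Subgroup.centralizer ({x} : Set G) := by
  rw [Subgroup.zpowers_eq_closure, Subgroup.centralizer_closure]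

theorem map_conj_conj (J : Subgroup G) (a b : G) :
    (J.map (MulAut.conj a).toMonoidHom).map (MulAut.conj b).toMonoidHom = J.map (MulAut.conj (b * a)).toMonoidHom := by
  rw [Subgroup.map_map, map_mul]; rfl

theorem map_conj_one' (J : Subgroup G) : J.map (MulAut.conj (1 : G)).toMonoidHom = J := by
  rw [map_one]; exact Subgroup.map_id J

theorem map_conj_of_normalizer {J : Subgroup G} {g : G} (hg : g ∈ Subgroup.normalizer (J : Set G)) :
    J.map (MulAut.conj g).toMonoidHom = J :=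
  Subgroup.mem_normalizer_iff_map_conj_eq.1 hg

theorem mem_normalizer_of_map_conj {J : Subgroup G} {g : G} (hg : J.map (MulAut.conj g).toMonoidHom = J) :
    g ∈ Subgroup.normalizer (J : Set G) :=
  Subgroup.mem_normalizer_iff_map_conj_eq.2 hg

theorem conj_mem_normalizer {J : Subgroup G} {g y : G}
    (hg : g ∈ Subgroup.normalizer ((J.map (MulAut.conj y).toMonoidHom : Subgroup G) : Set G)) :
    y⁻¹ * g * y ∈ Subgroup.normalizer (J : Set G) := by
  refine mem_normalizer_of_map_conj ?_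
  rw [← map_conj_conj, ← map_conj_conj, map_conj_of_normalizer hg, map_conj_conj, inv_mul_cancel, map_conj_one']

namespace Config

theorem isPGroupV (c : Config p q r V Q P x) : IsPGroup p V := fun v => ⟨1, Subtype.ext (by
  rw [pow_one]; simpa using c.powV v v.2)⟩

theorem coprime_of_pq (c : Config p q r V Q P x) {A B : Subgroup G} (hA : IsPGroup q A) (hB : IsPGroup p B) :
    (Nat.card A).Coprime (Nat.card B) := by
  obtain ⟨a, ha⟩ := hA.exists_card_eq
  obtain ⟨b, hb⟩ := hB.exists_card_eq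
  rw [ha, hb]
  exact Nat.Coprime.pow _ _ ((Nat.coprime_primes hq.out hp.out).2 c.q_ne_p)

theorem x_pow (c : Config p q r V Q P x) : x ^ r = 1 := c.ord_x ▸ pow_orderOf_eq_one x

theorem coprime_x (c : Config p q r V Q P x) {A : Subgroup G} (hA : IsPGroup p A ∨ IsPGroup q A) :
    (Nat.card (Subgroup.zpowers x)).Coprime (Nat.card A) := by
  rw [Nat.card_zpowers, c.ord_x]
  rcases hA with hA | hA
  all_goals obtain ⟨a, ha⟩ := hA.exists_card_eq; rw [ha]
  · exact ((Nat.coprime_primes c.r_prime hp.out).2 c.r_ne_p).pow_right a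
  · exact ((Nat.coprime_primes c.r_prime hq.out).2 c.r_ne_q).pow_right a

theorem P_eq_commutator (c : Config p q r V Q P x) : ⁅P, Subgroup.zpowers x⁆ = P := by
  have h := CoprimeAction.commutator_sup_centralizer (Subgroup.zpowers_le.2 c.x_P) (c.coprime_x (Or.inl c.pgroupP))
    (Or.inl (Group.isSolvable_of_comm mul_comm'))
  rwa [centralizer_zpowers, c.fixP, sup_bot_eq] at h

theorem P_not_le_centralizer (c : Config p q r V Q P x) : ¬ P ≤ Subgroup.centralizer (Q : Set G) := fun h =>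
  c.Q_ne (c.comm ▸ Subgroup.commutator_eq_bot_iff_le_centralizer.2 (Subgroup.le_centralizer_iff.1 h))

theorem x_derived (c : Config p q r V Q P x) : x ∈ Subgroup.normalizer ((⁅Q, Q⁆ : Subgroup G) : Set G) :=
  (PCore.le_normalizer_commutator (Subgroup.zpowers_le.2 c.x_Q) (Subgroup.zpowers_le.2 c.x_Q))
    (Subgroup.mem_zpowers x)

theorem derived_le (_c : Config p q r V Q P x) : ⁅Q, Q⁆ ≤ Q :=
  Subgroup.commutator_le.2 fun a ha b hb => by
    rw [commutatorElement_def]
    exact Q.mul_mem (Q.mul_mem (Q.mul_mem ha hb) (Q.inv_mem ha)) (Q.inv_mem hb)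

theorem derived_comm (c : Config p q r V Q P x) : IsMulCommutative (⁅Q, Q⁆ : Subgroup G) :=
  ⟨⟨fun a b => Subtype.ext (Subgroup.mem_centralizer_iff.1 (c.derived_central a.2) b (c.derived_le b.2)).symm⟩⟩

theorem derived_pow (c : Config p q r V Q P x) : ∀ y ∈ ⁅Q, Q⁆, y ^ q = 1 := by
  haveI := c.derived_comm
  let T : Subgroup G :=
    { carrier := {y | y ∈ ⁅Q, Q⁆ ∧ y ^ q = 1}
      one_mem' := ⟨one_mem _, one_pow q⟩
      mul_mem' := fun {a b} ha hb => ⟨mul_mem ha.1 hb.1, by
        rw [Commute.mul_pow (setLike_mul_comm ha.1 hb.1), ha.2, hb.2, one_mul]⟩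
      inv_mem' := fun {a} ha => ⟨inv_mem ha.1, by rw [inv_pow, ha.2, inv_one]⟩ }
  intro y hy
  refine ((Subgroup.commutator_le (H₃ := T)).2 (fun a ha b hb => ?_) hy).2
  have hcen : ∀ g ∈ Q, ∀ z ∈ ⁅Q, Q⁆, g * z = z * g := fun g hg z hz =>
    Subgroup.mem_centralizer_iff.1 (c.derived_central hz) g hg
  refine ⟨Subgroup.commutator_mem_commutator ha hb, ?_⟩
  have hpow : ∀ n : ℕ, ⁅a ^ n, b⁆ = ⁅a, b⁆ ^ n := by
    intro n
    induction n with
    | zero => simp [commutatorElement_def]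
    | succ n ih =>
      have hm : ⁅a, b⁆ ^ n ∈ ⁅Q, Q⁆ := Subgroup.pow_mem _ (Subgroup.commutator_mem_commutator ha hb) n
      calc ⁅a ^ (n + 1), b⁆ = a * ⁅a ^ n, b⁆ * a⁻¹ * ⁅a, b⁆ := by
            rw [pow_succ', commutatorElement_def, commutatorElement_def, commutatorElement_def]; group
        _ = ⁅a, b⁆ ^ (n + 1) := by
            rw [ih, hcen a ha _ hm, mul_inv_cancel_right, ← pow_succ]
  rw [← hpow, commutatorElement_eq_one_iff_mul_comm]
  exact (hcen b hb _ (c.pow_mem a ha)).symm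

/-- A hyperplane is normal for `x` as soon as its component has order other than `p`. -/
theorem card_of_moved (c : Config p q r V Q P x) {W A : Subgroup G} (hWV : W ≤ V) (h : FpfAction q W A)
    (hxA : x ∈ Subgroup.normalizer (A : Set G)) (hxW : x ∈ Subgroup.normalizer (W : Set G))
    {I : Subgroup G} (hI : I ≤ A) (hIi : I.relIndex A = q)
    (hm : x ∉ Subgroup.normalizer (I : Set G)) (hne : W ⊓ Subgroup.centralizer (I : Set G) ≠ ⊥) :
    Nat.card ↥(W ⊓ Subgroup.centralizer (I : Set G)) = p :=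
  card_component_of_moved h hxA hxW c.r_prime c.x_pow (c.isPGroupV.to_le hWV)
    ((Subgroup.card_le_of_le (inf_le_inf_right _ hWV)).trans c.cardC) hI hIi hm hne

theorem prime_section_bot {E : Subgroup G} (hE : Nat.card E = p) {g h : G}
    (hg : g ∈ Subgroup.normalizer (E : Set G)) (hh : h ∈ Subgroup.normalizer (E : Set G)) :
    ⁅g, h⁆ ∈ Subgroup.centralizer (E : Set G) := by
  refine Subgroup.mem_centralizer_iff.2 fun a ha => ?_
  have hN : Subgroup.normalizer ((⊥ : Subgroup G) : Set G) = ⊤ := Subgroup.normalizer_eq_top_iff.2 inferInstance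
  have h1 := commutator_mem_of_prime_section (q := p) (J := (⊥ : Subgroup G)) (hN ▸ le_top)
    (by rw [Subgroup.relIndex_bot_left, hE]) (g := g) (h := h) ⟨hg, by rw [hN]; trivial⟩ ⟨hh, by rw [hN]; trivial⟩ ha
  exact (commutatorElement_eq_one_iff_mul_comm.1 (Subgroup.mem_bot.1 h1)).symm

/-- The abelian case. -/
theorem false_of_abelian (c : Config p q r V Q P x) (hodd : Odd (Nat.card G)) (hab : ⁅Q, Q⁆ = ⊥) : False := by
  haveI := c.commV
  haveI hQc : IsMulCommutative Q :=
    ⟨⟨fun a b => Subtype.ext (commutatorElement_eq_one_iff_mul_comm.1 (Subgroup.mem_bot.1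
      (hab ▸ Subgroup.commutator_mem_commutator a.2 b.2)))⟩⟩
  have hexp : ∀ y ∈ Q, y ^ q = 1 := fun y hy => Subgroup.mem_bot.1 (hab ▸ c.pow_mem y hy)
  have hfpf : FpfAction q V Q := ⟨c.commV, hQc, c.Q_V, c.coprime_of_pq c.qgroupQ c.isPGroupV, c.fpfQ⟩
  let comp : Subgroup G → Subgroup G := fun I => V ⊓ Subgroup.centralizer (I : Set G)
  let S : Set (Subgroup G) := {I | I ≤ Q ∧ I.relIndex Q = q ∧ comp I ≠ ⊥}
  have hmapS : ∀ g ∈ Subgroup.normalizer (V : Set G), g ∈ Subgroup.normalizer (Q : Set G) → ∀ I ∈ S,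
      I.map (MulAut.conj g).toMonoidHom ∈ S := by
    rintro g hgV hgQ I ⟨hI, hIi, hne⟩
    obtain ⟨h1, h2⟩ := map_hyperplane hgQ hI hIi 1
    rw [pow_one] at h1 h2
    refine ⟨h1, h2, fun hb => hne ?_⟩
    rw [eq_bot_iff]
    intro v hv
    have h3 := conj_mem_component hgV hv 1
    rw [pow_one] at h3
    have h4 : g * v * g⁻¹ ∈ (⊥ : Subgroup G) := hb ▸ h3
    rw [Subgroup.mem_bot] at h4 ⊢
    simpa [mul_assoc] using congrArg (fun z => g⁻¹ * z * g) h4
  have hxr := c.x_pow
  -- the moved members of `S` form one orbit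
  have horbit : ∀ I ∈ S, x ∉ Subgroup.normalizer (I : Set G) → ∀ J ∈ S, x ∉ Subgroup.normalizer (J : Set G) →
      ∃ i : ℕ, J.map (MulAut.conj (x ^ i)).toMonoidHom = I := fun I hI hmI J hJ hmJ =>
    moved_same_orbit hfpf c.x_Q c.x_V c.r_prime hxr c.isPGroupV c.cardC hI.1 hI.2.1 hmI hI.2.2 hJ.1 hJ.2.1 hmJ hJ.2.2
  have hinj : ∀ I : Subgroup G, x ∉ Subgroup.normalizer (I : Set G) →
      Function.Injective fun i : Fin r => I.map (MulAut.conj (x ^ (i : ℕ))).toMonoidHom := by
    intro I hm i j hij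
    have hle : ∀ i j : Fin r, (i : ℕ) ≤ j →
        I.map (MulAut.conj (x ^ (i : ℕ))).toMonoidHom = I.map (MulAut.conj (x ^ (j : ℕ))).toMonoidHom → i = j := by
      intro i j hle hij
      by_contra hne
      refine map_ne_of_moved (i := (j : ℕ) - i) c.r_prime hxr hm
        (Nat.sub_pos_of_lt (lt_of_le_of_ne hle fun e => hne (Fin.ext e))) (by omega) ?_
      refine Subgroup.map_injective (f := (MulAut.conj (x ^ (i : ℕ))).toMonoidHom)
        (MulAut.conj (x ^ (i : ℕ))).injective ?_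
      rw [map_conj_conj, ← pow_add, Nat.add_sub_cancel' hle]
      exact hij.symm
    rcases le_total (i : ℕ) j with h | h
    · exact hle i j h hij
    · exact (hle j i h hij.symm).symm
  have hrange : ∀ I ∈ S, x ∉ Subgroup.normalizer (I : Set G) → ∀ J : Subgroup G,
      (J ∈ S ∧ x ∉ Subgroup.normalizer (J : Set G)) ↔
        J ∈ Set.range fun i : Fin r => I.map (MulAut.conj (x ^ (i : ℕ))).toMonoidHom := by
    intro I hI hmI J
    constructor
    · rintro ⟨hJ, hmJ⟩
      obtain ⟨i, hi⟩ := horbit J hJ hmJ I hI hmI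
      refine ⟨⟨i % r, Nat.mod_lt _ c.r_prime.pos⟩, ?_⟩
      have he : x ^ (i % r) = x ^ i := by rw [← c.ord_x, pow_mod_orderOf]
      show I.map (MulAut.conj (x ^ (i % r))).toMonoidHom = J
      rw [he, hi]
    · rintro ⟨i, rfl⟩
      refine ⟨hmapS _ (Subgroup.pow_mem _ c.x_V _) (Subgroup.pow_mem _ c.x_Q _) I hI, fun h => hmI ?_⟩
      have h1 := conj_mem_normalizer h
      rwa [mul_assoc, (Commute.self_pow x i).eq, inv_mul_cancel_left] at h1
  -- an orbit of `P`
  let orb : Subgroup G → Set (Subgroup G) := fun J =>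
    Set.range fun y : P => J.map (MulAut.conj (y : G)).toMonoidHom
  have horbS : ∀ J ∈ S, orb J ⊆ S := by
    rintro J hJ _ ⟨y, rfl⟩
    exact hmapS y (c.P_V y.2) (c.P_Q y.2) J hJ
  -- no member of `S` is fixed by `x`
  have hF : ∀ J ∈ S, x ∉ Subgroup.normalizer (J : Set G) := by
    intro J hJ hxJ
    by_cases hPJ : P ≤ Subgroup.normalizer (J : Set G)
    · -- `P = [P, x]` centralizes `Q / J`
      have hQJ : Q ≤ Subgroup.normalizer (J : Set G) :=
        (Subgroup.le_centralizer Q).trans ((Subgroup.centralizer_le hJ.1).trans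
          (Subgroup.centralizer_le_normalizer _))
      let T : Subgroup G :=
        { carrier := {g | g ∈ Subgroup.normalizer (J : Set G) ∧ ∀ a ∈ Q, g * a * g⁻¹ * a⁻¹ ∈ J}
          one_mem' := ⟨one_mem _, fun a _ => by simp⟩
          mul_mem' := fun {g h} hg hh => ⟨mul_mem hg.1 hh.1, fun a ha => by
            have h1 := (Subgroup.mem_normalizer_iff.1 hg.1 _).1 (hh.2 a ha)
            rw [show g * h * a * (g * h)⁻¹ * a⁻¹ = g * (h * a * h⁻¹ * a⁻¹) * g⁻¹ * (g * a * g⁻¹ * a⁻¹) by group]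
            exact J.mul_mem h1 (hg.2 a ha)⟩
          inv_mem' := fun {g} hg => ⟨inv_mem hg.1, fun a ha => by
            have h1 := (Subgroup.mem_normalizer_iff.1 (inv_mem hg.1) _).1 (J.inv_mem (hg.2 a ha))
            rw [show g⁻¹ * a * g⁻¹⁻¹ * a⁻¹ = g⁻¹ * (g * a * g⁻¹ * a⁻¹)⁻¹ * g⁻¹⁻¹ by group]
            exact h1⟩ }
      have hPT : P ≤ T := by
        rw [← c.P_eq_commutator, Subgroup.commutator_le]
        intro y hy z hz
        have hzn : z ∈ Subgroup.normalizer (Q : Set G) ⊓ Subgroup.normalizer (J : Set G) :=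
          (Subgroup.zpowers_le.2 (Subgroup.mem_inf.2 ⟨c.x_Q, hxJ⟩)) hz
        have hyn : y ∈ Subgroup.normalizer (Q : Set G) ⊓ Subgroup.normalizer (J : Set G) := ⟨c.P_Q hy, hPJ hy⟩
        have hJn := Subgroup.mem_inf.1 (Subgroup.mul_mem _ (Subgroup.mul_mem _ (Subgroup.mul_mem _ hyn hzn)
          (Subgroup.inv_mem _ hyn)) (Subgroup.inv_mem _ hzn))
        exact ⟨hJn.2, fun a ha => commutator_mem_of_prime_section hQJ hJ.2.1 hyn hzn ha⟩
      have hle : Q ≤ J := by
        rw [← c.comm, Subgroup.commutator_le]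
        intro a ha y hy
        have h2 := J.inv_mem ((hPT hy).2 a ha)
        rwa [show (y * a * y⁻¹ * a⁻¹)⁻¹ = ⁅a, y⁆ by rw [commutatorElement_def]; group] at h2
      have := hJ.2.1
      rw [Subgroup.relIndex_eq_one.2 hle] at this
      exact hq.out.one_lt.ne this
    · -- the orbit of `J` is `J` and one orbit of `x`
      obtain ⟨y₀, hy₀, hy₀J⟩ := SetLike.not_le_iff_exists.1 hPJ
      have hfixed : ∀ y : P, x ∈ Subgroup.normalizer ((J.map (MulAut.conj (y : G)).toMonoidHom : Subgroup G) : Set G) →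
          J.map (MulAut.conj (y : G)).toMonoidHom = J := by
        intro y hy
        set P₁ := P ⊓ Subgroup.normalizer (J : Set G) with hP₁
        have hxP₁ : Subgroup.zpowers x ≤ Subgroup.normalizer (P₁ : Set G) :=
          Subgroup.zpowers_le.2 ((Subgroup.inf_normalizer_le_normalizer_inf : _) ⟨c.x_P,
            Subgroup.le_normalizer hxJ⟩)
        obtain ⟨n, hn, hnk⟩ := CoprimeAction.exists_mem_centralizer (k := (y : G)⁻¹) hxP₁
          (c.coprime_x (Or.inl (c.pgroupP.to_le inf_le_left))) (Or.inl (Group.isSolvable_of_comm mul_comm'))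
          (fun a ha => by
            have haP : a ∈ Subgroup.normalizer (P : Set G) := (Subgroup.zpowers_le.2 c.x_P) ha
            have haJ : a ∈ Subgroup.normalizer (J : Set G) := (Subgroup.zpowers_le.2 hxJ) ha
            have hay := conj_mem_normalizer ((Subgroup.zpowers_le.2 hy) ha)
            refine Subgroup.mem_inf.2 ⟨?_, ?_⟩
            · simpa using P.mul_mem ((Subgroup.mem_normalizer_iff.1 haP _).1 (P.inv_mem y.2)) y.2
            · have := Subgroup.inv_mem _ (Subgroup.mul_mem _ hay (Subgroup.inv_mem _ haJ))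
              simpa [mul_assoc] using this)
        rw [centralizer_zpowers] at hnk
        have h1 : n * (y : G)⁻¹ ∈ (⊥ : Subgroup G) :=
          c.fixP ▸ Subgroup.mem_inf.2 ⟨P.mul_mem hn.1 (P.inv_mem y.2), hnk⟩
        rw [Subgroup.mem_bot, mul_inv_eq_one] at h1
        exact map_conj_of_normalizer (h1 ▸ (Subgroup.mem_inf.1 hn).2)
      set I₀ := J.map (MulAut.conj y₀).toMonoidHom with hI₀
      have hI₀S : I₀ ∈ S := hmapS y₀ (c.P_V hy₀) (c.P_Q hy₀) J hJ
      have hI₀m : x ∉ Subgroup.normalizer (I₀ : Set G) := fun h =>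
        hy₀J (mem_normalizer_of_map_conj (hfixed ⟨y₀, hy₀⟩ h))
      set T := Set.range fun i : Fin r => I₀.map (MulAut.conj (x ^ (i : ℕ))).toMonoidHom with hT
      have hJT : J ∉ T := fun h => ((hrange I₀ hI₀S hI₀m J).2 h).2 hxJ
      have hO : orb J = insert J T := by
        refine Set.Subset.antisymm ?_ (Set.insert_subset ⟨1, map_conj_one' J⟩ ?_)
        · rintro _ ⟨y, rfl⟩
          by_cases h : x ∈ Subgroup.normalizer ((J.map (MulAut.conj (y : G)).toMonoidHom : Subgroup G) : Set G)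
          · exact Or.inl (hfixed y h)
          · exact Or.inr ((hrange I₀ hI₀S hI₀m _).1 ⟨horbS J hJ ⟨y, rfl⟩, h⟩)
        · rintro _ ⟨i, rfl⟩
          have hxi : x ^ (i : ℕ) ∈ Subgroup.normalizer (J : Set G) := Subgroup.pow_mem _ hxJ _
          refine ⟨⟨_, (Subgroup.mem_normalizer_iff.1 (Subgroup.pow_mem _ c.x_P (i : ℕ)) y₀).1 hy₀⟩, ?_⟩
          show J.map (MulAut.conj (x ^ (i : ℕ) * y₀ * (x ^ (i : ℕ))⁻¹)).toMonoidHom = _
          rw [← map_conj_conj, map_conj_of_normalizer (Subgroup.inv_mem _ hxi), hI₀]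
          exact (map_conj_conj J y₀ (x ^ (i : ℕ))).symm
      have hcT : T.ncard = r := by
        rw [← Nat.card_coe_set_eq, hT, Nat.card_range_of_injective (hinj I₀ hI₀m), Nat.card_fin]
      have hcO : (orb J).ncard = r + 1 := by rw [hO, Set.ncard_insert_of_notMem hJT, hcT]
      have hdvd : (orb J).ncard ∣ Nat.card P := by
        letI : MulAction P (Subgroup G) := MulAction.compHom _ ((MulAut.conj : G →* MulAut G).comp P.subtype)
        have hor : orb J = MulAction.orbit P J := rfl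
        rw [hor, ← Nat.card_coe_set_eq, Nat.card_congr (MulAction.orbitEquivQuotientStabilizer P J),
          ← Subgroup.index_eq_card]
        exact Subgroup.index_dvd_card _
      rw [hcO] at hdvd
      have h2 : 2 ∣ Nat.card G := ((c.r_prime.odd_of_ne_two c.r_ne_two).add_odd odd_one).two_dvd.trans
        (hdvd.trans (Subgroup.card_subgroup_dvd_card P))
      exact (Nat.not_even_iff_odd.2 hodd) (even_iff_two_dvd.2 h2)
  -- so `S` is one orbit, of length `r`
  obtain ⟨I₀, hI₀S⟩ : ∃ I, I ∈ S := by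
    by_contra hno
    refine c.Q_ne (le_bot_iff.1 fun y hy => Subgroup.mem_bot.2 ?_)
    have hV : V ≤ ⊥ := CoprimeAction.le_of_hyperplane_centralizers_le c.Q_ne hexp c.Q_V hfpf.coprime
      fun B hB hBi => le_of_eq (by_contra fun hne => hno ⟨B, hB, hBi, hne⟩)
    refine c.faith y (Subgroup.mem_sup_left hy) (Subgroup.mem_centralizer_iff.2 fun v hv => ?_)
    rw [Subgroup.mem_bot.1 (hV hv), one_mul, mul_one]
  have hI₀m := hF I₀ hI₀S
  have hSeq : S = Set.range fun i : Fin r => I₀.map (MulAut.conj (x ^ (i : ℕ))).toMonoidHom :=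
    Set.ext fun J => ⟨fun hJ => (hrange I₀ hI₀S hI₀m J).1 ⟨hJ, hF J hJ⟩, fun hJ => ((hrange I₀ hI₀S hI₀m J).2 hJ).1⟩
  letI : MulAction P S :=
    { smul := fun y J => ⟨_, hmapS y (c.P_V y.2) (c.P_Q y.2) J J.2⟩
      one_smul := fun J => Subtype.ext (map_conj_one' (J : Subgroup G))
      mul_smul := fun y z J => Subtype.ext (map_conj_conj (J : Subgroup G) (z : G) (y : G)).symm }
  obtain ⟨J, hJ⟩ := c.pgroupP.nonempty_fixed_point_of_prime_not_dvd_card S (by
    rw [hSeq, Nat.card_range_of_injective (hinj I₀ hI₀m), Nat.card_fin]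
    exact fun hd => c.r_ne_p ((Nat.prime_dvd_prime_iff_eq hp.out c.r_prime).1 hd).symm)
  have hPJ : ∀ I ∈ S, P ≤ Subgroup.normalizer (I : Set G) := by
    intro I hI y hy
    obtain ⟨i, hi⟩ := horbit J J.2 (hF J J.2) I hI (hF I hI)
    have hy' : x ^ i * y * (x ^ i)⁻¹ ∈ P := (Subgroup.mem_normalizer_iff.1 (Subgroup.pow_mem _ c.x_P i) y).1 hy
    have h1 : ((J : Subgroup G)).map (MulAut.conj (x ^ i * y * (x ^ i)⁻¹)).toMonoidHom = J :=
      congrArg Subtype.val (MulAction.mem_fixedPoints.1 hJ ⟨_, hy'⟩)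
    rw [← hi] at h1
    have h2 := conj_mem_normalizer (mem_normalizer_of_map_conj h1)
    simpa [mul_assoc] using h2
  have hle : V ≤ V ⊓ Subgroup.centralizer (P : Set G) := by
    refine CoprimeAction.le_of_hyperplane_centralizers_le c.Q_ne hexp c.Q_V hfpf.coprime fun B hB hBi => ?_
    by_cases hne : V ⊓ Subgroup.centralizer (B : Set G) = ⊥
    · rw [hne]; exact bot_le
    have hBS : B ∈ S := ⟨hB, hBi, hne⟩
    have hE := c.card_of_moved le_rfl hfpf c.x_Q c.x_V hB hBi (hF B hBS) hne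
    refine le_inf inf_le_left (Subgroup.le_centralizer_iff.1 fun y hy => ?_)
    obtain ⟨k, hk⟩ := IsPGroup.iff_orderOf.1 c.pgroupP ⟨y, hy⟩
    rw [Subgroup.orderOf_mk] at hk
    exact mem_centralizer_of_card_prime hE (Subgroup.inf_normalizer_le_normalizer_inf ⟨c.P_V hy,
      Components.normalizer_le_normalizer_centralizer _ (hPJ B hBS hy)⟩) (hk ▸ pow_orderOf_eq_one y)
  exact c.P_not_le_centralizer fun y hy => by
    rw [c.faith y (Subgroup.mem_sup_right hy) (Subgroup.le_centralizer_iff.1 (hle.trans inf_le_right) hy)]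
    exact one_mem _

/-- The index of a layer between `Q'` and `Q` invariant under `P` and `x`. -/
theorem relIndex_layer [Group.IsSolvable G] (c : Config p q r V Q P x) (hodd : Odd (Nat.card G)) {Y : Subgroup G}
    (hAY : ⁅Q, Q⁆ ≤ Y) (hYQ : Y ≤ Q) (hPY : P ≤ Subgroup.normalizer (Y : Set G))
    (hxY : x ∈ Subgroup.normalizer (Y : Set G)) :
    (⁅Q, Q⁆ : Subgroup G).relIndex Y = 1 ∨ (⁅Q, Q⁆ : Subgroup G).relIndex Y = q ^ r := by
  set A : Subgroup G := ⁅Q, Q⁆ with hA
  set N := Subgroup.normalizer (A : Set G) with hN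
  have hQN : Q ≤ N := PCore.le_normalizer_commutator Subgroup.le_normalizer Subgroup.le_normalizer
  have hPN : P ≤ N := PCore.le_normalizer_commutator c.P_Q c.P_Q
  have hRN : Subgroup.zpowers x ≤ N := Subgroup.zpowers_le.2 c.x_derived
  haveI : (A.subgroupOf N).Normal := Subgroup.normal_in_normalizer
  set f := QuotientGroup.mk' (A.subgroupOf N) with hf
  set K := (P.subgroupOf N).map f with hK
  set R := ((Subgroup.zpowers x).subgroupOf N).map f with hR
  set MQ := (Q.subgroupOf N).map f with hMQ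
  set M := (Y.subgroupOf N).map f with hM
  have hmem : ∀ {S : Subgroup G} {g : N}, (g : G) ∈ S → f g ∈ (S.subgroupOf N).map f := fun hg => ⟨_, hg, rfl⟩
  have hker : ∀ g : N, f g = 1 ↔ (g : G) ∈ A := fun g => by
    rw [hf, QuotientGroup.mk'_apply, QuotientGroup.eq_one_iff, Subgroup.mem_subgroupOf]
  have hcard : ∀ S : Subgroup G, S ≤ N → Nat.card ((S.subgroupOf N).map f) = A.relIndex S := fun S hS => by
    rw [← Subgroup.relIndex_ker, hf, QuotientGroup.ker_mk', Subgroup.relIndex_subgroupOf hS]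
  have hPA : P ⊓ A = ⊥ :=
    PCore.inf_eq_bot_of_isPGroup_of_coprime c.pgroupP (by
      obtain ⟨b, hb⟩ := (c.qgroupQ.to_le c.derived_le : IsPGroup q A).exists_card_eq
      rw [hb]; exact ((Nat.coprime_primes hq.out hp.out).2 c.q_ne_p).pow_left b)
  have hK1 : K ≠ ⊥ := fun h => c.P_not_le_centralizer fun y hy => by
    have h1 := (hker ⟨y, hPN hy⟩).1 (Subgroup.mem_bot.1 (h ▸ hmem (g := ⟨y, hPN hy⟩) hy))
    have h2 : y ∈ (⊥ : Subgroup G) := hPA ▸ Subgroup.mem_inf.2 ⟨hy, h1⟩
    rw [Subgroup.mem_bot.1 h2]; exact one_mem _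
  have hRcard : Nat.card R = r := by
    rw [hR, hcard _ hRN]
    have h1 := Subgroup.relIndex_dvd_card A (Subgroup.zpowers x)
    rw [← Subgroup.inf_relIndex_right]
    have h2 : A ⊓ Subgroup.zpowers x = ⊥ := inf_comm A (Subgroup.zpowers x) ▸
      CoprimeAction.inf_eq_bot_of_coprime (c.coprime_x (Or.inr (c.qgroupQ.to_le c.derived_le)))
    rw [h2, Subgroup.relIndex_bot_left, Nat.card_zpowers, c.ord_x]
  have hR1 : R ≠ ⊥ := fun h => by
    rw [h, Subgroup.card_bot] at hRcard
    exact c.r_prime.one_lt.ne hRcard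
  haveI := Fact.mk c.r_prime
  have hKp : IsPGroup p K := (c.pgroupP.of_equiv (Subgroup.subgroupOfEquivOfLe hPN).symm).map f
  have hKR : K ⊓ R = ⊥ := by
    refine PCore.inf_eq_bot_of_isPGroup_of_coprime hKp ?_
    rw [hRcard]; exact (Nat.coprime_primes c.r_prime hp.out).2 c.r_ne_p
  have hnorm : ∀ {S T : Subgroup G}, S ≤ N → T ≤ N → S ≤ Subgroup.normalizer (T : Set G) →
      (S.subgroupOf N).map f ≤ Subgroup.normalizer ((T.subgroupOf N).map f : Set _) := by
    intro S T _ _ h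
    refine PCore.map_le_normalizer_map ?_ _
    intro g hg
    refine Subgroup.mem_normalizer_iff.2 fun z => ?_
    simp only [Subgroup.mem_subgroupOf, Subgroup.coe_mul, Subgroup.coe_inv]
    exact Subgroup.mem_normalizer_iff.1 (h hg) z
  have hRK : R ≤ Subgroup.normalizer (K : Set _) := hnorm hRN hPN (Subgroup.zpowers_le.2 c.x_P)
  have hcent : ∀ z ∈ R, z ≠ 1 → Subgroup.centralizer ({z} : Set (↥N ⧸ A.subgroupOf N)) =
      Subgroup.centralizer (R : Set (↥N ⧸ A.subgroupOf N)) := fun z hz hz1 => by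
    rw [← centralizer_zpowers z]
    congr 1
    have hle : Subgroup.zpowers z ≤ R := Subgroup.zpowers_le.2 hz
    rw [Subgroup.eq_of_le_of_card_ge hle (by
      rw [hRcard, Nat.card_zpowers]
      have h1 : orderOf z ∣ r := hRcard ▸ Subgroup.orderOf_dvd_natCard R hz
      exact ((c.r_prime.eq_one_or_self_of_dvd _ h1).resolve_left (by rwa [orderOf_eq_one_iff])).ge)]
  have hfK : K ⊓ Subgroup.centralizer (R : Set _) = ⊥ := by
    rw [eq_bot_iff]
    rintro _ ⟨⟨y, hy, rfl⟩, hc⟩
    have hxr : f ⟨x, c.x_derived⟩ ∈ R := hmem (Subgroup.mem_zpowers x)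
    have h1 : f (⟨x, c.x_derived⟩ * y * (⟨x, c.x_derived⟩ : N)⁻¹ * y⁻¹) = 1 := by
      rw [map_mul, map_mul, map_mul, map_inv, map_inv, Subgroup.mem_centralizer_iff.1 hc _ hxr, mul_inv_cancel_right,
        mul_inv_cancel]
    have h2 := (hker _).1 h1
    simp only [Subgroup.coe_mul, Subgroup.coe_inv] at h2
    have h3 : x * (y : G) * x⁻¹ * (y : G)⁻¹ ∈ (⊥ : Subgroup G) := hPA ▸ Subgroup.mem_inf.2
      ⟨P.mul_mem ((Subgroup.mem_normalizer_iff.1 c.x_P _).1 hy) (P.inv_mem hy), h2⟩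
    rw [Subgroup.mem_bot, mul_inv_eq_one, mul_inv_eq_iff_eq_mul] at h3
    have h4 : (y : G) ∈ (⊥ : Subgroup G) :=
      c.fixP ▸ Subgroup.mem_inf.2 ⟨hy, Subgroup.mem_centralizer_singleton_iff.2 h3.symm⟩
    rw [Subgroup.mem_bot] at h4 ⊢
    rw [show y = 1 from Subtype.ext h4, map_one]
  have hMQc : IsMulCommutative MQ := by
    refine ⟨⟨fun a b => Subtype.ext (commutatorElement_eq_one_iff_mul_comm.1 ?_)⟩⟩
    obtain ⟨a', ha', hae⟩ := a.2
    obtain ⟨b', hb', hbe⟩ := b.2
    rw [← hae, ← hbe, ← map_commutatorElement, hker]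
    exact Subgroup.commutator_mem_commutator ha' hb'
  haveI := hMQc
  have hKMQ : K ≤ Subgroup.normalizer (MQ : Set _) := hnorm hPN hQN c.P_Q
  have hMQq : IsPGroup q MQ := (c.qgroupQ.of_equiv (Subgroup.subgroupOfEquivOfLe hQN).symm).map f
  have hcopK : (Nat.card K).Coprime (Nat.card MQ) := by
    obtain ⟨a, ha⟩ := hKp.exists_card_eq
    obtain ⟨b, hb⟩ := hMQq.exists_card_eq
    rw [ha, hb]
    exact Nat.Coprime.pow _ _ ((Nat.coprime_primes hp.out hq.out).2 c.q_ne_p.symm)
  have hMle : M ≤ MQ := Subgroup.map_mono fun g hg => hYQ hg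
  have hCK : M ⊓ Subgroup.centralizer (K : Set _) = ⊥ := by
    have hcomm : MQ ≤ ⁅MQ, K⁆ := by
      rw [hMQ, hK, ← Subgroup.map_commutator]
      refine Subgroup.map_mono fun g hg => ?_
      have h1 : ((⁅Q.subgroupOf N, P.subgroupOf N⁆ : Subgroup N).map N.subtype) = Q := by
        rw [Subgroup.map_commutator, Subgroup.map_subgroupOf_eq_of_le hQN, Subgroup.map_subgroupOf_eq_of_le hPN, c.comm]
      obtain ⟨g', hg', he⟩ := h1.ge (show (g : G) ∈ Q from hg)
      rwa [N.subtype_injective he] at hg'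
    rw [eq_bot_iff, ← CoprimeAction.centralizer_inf_commutator_eq_bot hKMQ hcopK]
    exact fun z hz => ⟨⟨hMle hz.1, hz.2⟩, hcomm (hMle hz.1)⟩
  have hAYn : Y ≤ N := hYQ.trans hQN
  rcases eq_or_ne M ⊥ with hM1 | hM1
  · left
    rw [← hcard Y hAYn, ← hM, hM1, Subgroup.card_bot]
  have hMn : Group.IsNilpotent M := (hMQq.to_le hMle).isNilpotent
  have hKM : K ≤ Subgroup.normalizer (M : Set _) := hnorm hPN hAYn hPY
  have hRM : R ≤ Subgroup.normalizer (M : Set _) := hnorm hRN hAYn (Subgroup.zpowers_le.2 hxY)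
  have hcopM : (Nat.card ↥(K ⊔ R)).Coprime (Nat.card M) := by
    obtain ⟨a, ha⟩ := hKp.exists_card_eq
    obtain ⟨b, hb⟩ := (hMQq.to_le hMle).exists_card_eq
    have h1 : Nat.card ↥(K ⊔ R) ∣ Nat.card R * Nat.card K := by
      have hKS : K ≤ Subgroup.normalizer (K : Set (↥N ⧸ A.subgroupOf N)) := Subgroup.le_normalizer
      haveI : (K.subgroupOf (Subgroup.normalizer (K : Set (↥N ⧸ A.subgroupOf N)))).Normal :=
        Subgroup.normal_in_normalizer
      have h2 := PCore.card_sup_dvd (K.subgroupOf (Subgroup.normalizer (K : Set (↥N ⧸ A.subgroupOf N))))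
        (R.subgroupOf (Subgroup.normalizer (K : Set (↥N ⧸ A.subgroupOf N))))
      rw [← Subgroup.subgroupOf_sup hRK hKS, Nat.card_congr (Subgroup.subgroupOfEquivOfLe (sup_le hRK hKS)).toEquiv,
        Nat.card_congr (Subgroup.subgroupOfEquivOfLe hRK).toEquiv,
        Nat.card_congr (Subgroup.subgroupOfEquivOfLe hKS).toEquiv, sup_comm] at h2
      exact h2
    refine Nat.Coprime.coprime_dvd_left h1 ?_
    rw [hRcard, ha, hb]
    exact ((((Nat.coprime_primes c.r_prime hq.out).2 c.r_ne_q).pow_right b)).mul_left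
      (Nat.Coprime.pow _ _ ((Nat.coprime_primes hp.out hq.out).2 c.q_ne_p.symm))
  obtain ⟨-, hcardM, -⟩ := Cfsg.Agent.S1446.result K R M hK1 hR1 hKR hRK
    (fun z hz hz1 => by rw [hcent z hz hz1]; exact hfK) inferInstance
    ((hodd.of_dvd_nat (Subgroup.card_subgroup_dvd_card N)).of_dvd_nat (Subgroup.card_quotient_dvd_card _)
      |>.of_dvd_nat (Subgroup.card_subgroup_dvd_card _))
    hM1 hMn hKM hRM hcopM hCK (fun z hz hz1 => by rw [hcent z hz hz1])
  -- the fixed points are cyclic of exponent `q`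
  set CM := M ⊓ Subgroup.centralizer (R : Set (↥N ⧸ A.subgroupOf N)) with hCM
  haveI : IsCyclic ↥(Y ⊓ Subgroup.centralizer ({x} : Set G)) := by
    haveI := c.cycQ
    exact isCyclic_of_injective (Subgroup.inclusion (inf_le_inf_right _ hYQ)) (Subgroup.inclusion_injective _)
  have hsub : CM ≤ ((Y ⊓ Subgroup.centralizer ({x} : Set G)).subgroupOf N).map f := by
    rintro _ ⟨⟨y, hy, rfl⟩, hc⟩
    obtain ⟨n, hn, hny⟩ := CoprimeAction.exists_mem_centralizer (k := (y : G)) hRN
      (c.coprime_x (Or.inr (c.qgroupQ.to_le c.derived_le))) (Or.inl (Group.isSolvable_of_comm mul_comm'))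
      (fun a ha => by
        have har : f ⟨a, hRN ha⟩ ∈ R := hmem ha
        have h1 : f (⟨a, hRN ha⟩ * y * (⟨a, hRN ha⟩ : N)⁻¹ * y⁻¹) = 1 := by
          rw [map_mul, map_mul, map_mul, map_inv, map_inv, Subgroup.mem_centralizer_iff.1 hc _ har,
            mul_inv_cancel_right, mul_inv_cancel]
        simpa using (hker _).1 h1)
    rw [centralizer_zpowers] at hny
    refine ⟨⟨n * y, N.mul_mem (Subgroup.le_normalizer hn) y.2⟩,
      Subgroup.mem_inf.2 ⟨Y.mul_mem (hAY hn) hy, hny⟩, ?_⟩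
    rw [show (⟨n * y, N.mul_mem (Subgroup.le_normalizer hn) y.2⟩ : N) = ⟨n, Subgroup.le_normalizer hn⟩ * y from rfl,
      map_mul, (hker _).2 hn, one_mul]
  haveI : IsCyclic ↥CM := by
    haveI : IsCyclic ↥((Y ⊓ Subgroup.centralizer ({x} : Set G)).subgroupOf N) :=
      isCyclic_of_surjective (Subgroup.subgroupOfEquivOfLe (inf_le_left.trans hAYn)).symm.toMonoidHom
        (Subgroup.subgroupOfEquivOfLe (inf_le_left.trans hAYn)).symm.surjective
    haveI := isCyclic_of_surjective (f.subgroupMap ((Y ⊓ Subgroup.centralizer ({x} : Set G)).subgroupOf N))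
      (f.subgroupMap_surjective _)
    exact isCyclic_of_injective (Subgroup.inclusion hsub) (Subgroup.inclusion_injective _)
  obtain ⟨g, hg⟩ := IsCyclic.exists_ofOrder_eq_natCard (α := CM)
  have hCMq : Nat.card CM ∣ q := by
    rw [← hg]
    obtain ⟨y, hy, hye⟩ := (inf_le_left : CM ≤ M) g.2
    refine orderOf_dvd_of_pow_eq_one (Subtype.ext ?_)
    rw [Subgroup.coe_pow, ← hye, ← map_pow, Subgroup.coe_one, hker, Subgroup.coe_pow]
    exact c.pow_mem _ (hYQ hy)
  rw [← hcard Y hAYn, ← hM, hcardM, hRcard]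
  rcases hq.out.eq_one_or_self_of_dvd _ hCMq with h | h
  · left; rw [h, one_pow]
  · right; rw [h]

/-- The nonabelian case. -/
theorem false_of_nonabelian [Group.IsSolvable G] (c : Config p q r V Q P x) (hodd : Odd (Nat.card G))
    (hab : ⁅Q, Q⁆ ≠ ⊥) : False := by
  haveI := c.commV
  set A : Subgroup G := ⁅Q, Q⁆ with hA
  haveI hAc : IsMulCommutative A := c.derived_comm
  have hQA : Q ≤ Subgroup.normalizer (A : Set G) :=
    PCore.le_normalizer_commutator Subgroup.le_normalizer Subgroup.le_normalizer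
  have hAV : A ≤ Subgroup.normalizer (V : Set G) := c.derived_le.trans c.Q_V
  have hcop : (Nat.card A).Coprime (Nat.card V) := c.coprime_of_pq (c.qgroupQ.to_le c.derived_le) c.isPGroupV
  set W : Subgroup G := ⁅V, A⁆ with hW
  have hWV : W ≤ V := CoprimeAction.commutator_le_of_normalizer hAV
  have hWA : ∀ {g : G}, g ∈ Subgroup.normalizer (V : Set G) → g ∈ Subgroup.normalizer (A : Set G) →
      g ∈ Subgroup.normalizer (W : Set G) := fun hgV hgA =>
    (PCore.le_normalizer_commutator (Subgroup.zpowers_le.2 hgV) (Subgroup.zpowers_le.2 hgA)) (Subgroup.mem_zpowers _)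
  have hxW := hWA c.x_V c.x_derived
  have hfpf : FpfAction q W A := by
    refine ⟨⟨⟨fun a b => Subtype.ext (setLike_mul_comm (hWV a.2) (hWV b.2))⟩⟩, hAc,
      fun g hg => hWA (hAV hg) (Subgroup.le_normalizer hg),
      hcop.coprime_dvd_right (Subgroup.card_dvd_of_le hWV), ?_⟩
    rw [eq_bot_iff, ← CoprimeAction.centralizer_inf_commutator_eq_bot hAV hcop]
    exact fun z hz => ⟨⟨hWV hz.1, hz.2⟩, hz.1⟩
  obtain ⟨I, hI, hIi, hne⟩ : ∃ I : Subgroup G, I ≤ A ∧ I.relIndex A = q ∧
      W ⊓ Subgroup.centralizer (I : Set G) ≠ ⊥ := by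
    by_contra hno
    have hbot : W ≤ ⊥ := CoprimeAction.le_of_hyperplane_centralizers_le hab c.derived_pow hfpf.le_normalizer
      hfpf.coprime fun B hB hBi => le_of_eq (by_contra fun h => hno ⟨B, hB, hBi, h⟩)
    refine hab (le_bot_iff.1 fun a ha => Subgroup.mem_bot.2 (c.faith a (Subgroup.mem_sup_left (c.derived_le ha))
      ((Subgroup.le_centralizer_iff.1 (Subgroup.commutator_eq_bot_iff_le_centralizer.1 (le_bot_iff.1 hbot))) ha)))
  have hQI : Q ≤ Subgroup.normalizer (I : Set G) :=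
    ((Subgroup.le_centralizer_iff.1 c.derived_central).trans (Subgroup.centralizer_le hI)).trans
      (Subgroup.centralizer_le_normalizer _)
  have hxI : x ∈ Subgroup.normalizer (I : Set G) := by
    by_contra hm
    have hE := c.card_of_moved hWV hfpf c.x_derived hxW hI hIi hm hne
    refine hne (le_bot_iff.1 ?_)
    rw [← hfpf.fpf]
    refine le_inf inf_le_left (Subgroup.le_centralizer_iff.1 ?_)
    rw [hA, Subgroup.commutator_le]
    intro a ha b hb
    have hn : ∀ g ∈ Q, g ∈ Subgroup.normalizer ((W ⊓ Subgroup.centralizer (I : Set G) : Subgroup G) : Set G) :=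
      fun g hg => Subgroup.inf_normalizer_le_normalizer_inf ⟨hWA (c.Q_V hg) (hQA hg),
        Components.normalizer_le_normalizer_centralizer _ (hQI hg)⟩
    exact prime_section_bot hE (hn a ha) (hn b hb)
  have hIQ : I ≤ Q := hI.trans c.derived_le
  haveI hIn : (I.subgroupOf Q).Normal := Subgroup.normal_subgroupOf_of_le_normalizer hQI
  set Z := (Subgroup.center (↥Q ⧸ I.subgroupOf Q)).comap (QuotientGroup.mk' (I.subgroupOf Q)) with hZ
  set Y := Z.map Q.subtype with hY
  have hmemY : ∀ g : G, g ∈ Y ↔ g ∈ Q ∧ ∀ y ∈ Q, ⁅y, g⁆ ∈ I := by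
    intro g
    constructor
    · rintro ⟨z, hz, rfl⟩
      refine ⟨z.2, fun y hy => ?_⟩
      have h1 := commutatorElement_eq_one_iff_mul_comm.2 (Subgroup.mem_center_iff.1 hz (QuotientGroup.mk' _ ⟨y, hy⟩))
      rw [← map_commutatorElement] at h1
      exact Subgroup.mem_subgroupOf.1 ((QuotientGroup.eq_one_iff _).1 h1)
    · rintro ⟨hg, h⟩
      refine ⟨⟨g, hg⟩, Subgroup.mem_center_iff.2 fun z => ?_, rfl⟩
      obtain ⟨y, rfl⟩ := QuotientGroup.mk'_surjective _ z
      rw [← commutatorElement_eq_one_iff_mul_comm, ← map_commutatorElement]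
      exact (QuotientGroup.eq_one_iff _).2 (Subgroup.mem_subgroupOf.2 (h y y.2))
  have hAY : A ≤ Y := fun a ha => (hmemY a).2 ⟨c.derived_le ha, fun y hy => by
    rw [commutatorElement_eq_one_iff_mul_comm.2 (Subgroup.mem_centralizer_iff.1 (c.derived_central ha) y hy)]
    exact one_mem _⟩
  have hYn : ∀ g : G, g ∈ Subgroup.normalizer (Q : Set G) → g ∈ Subgroup.normalizer (I : Set G) →
      g ∈ Subgroup.normalizer (Y : Set G) := by
    have key : ∀ g : G, g ∈ Subgroup.normalizer (Q : Set G) → g ∈ Subgroup.normalizer (I : Set G) →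
        ∀ z ∈ Y, g * z * g⁻¹ ∈ Y := by
      intro g hgQ hgI z hz
      obtain ⟨hzQ, hzc⟩ := (hmemY z).1 hz
      refine (hmemY _).2 ⟨(Subgroup.mem_normalizer_iff.1 hgQ z).1 hzQ, fun y hy => ?_⟩
      have hy' : g⁻¹ * y * g ∈ Q := by
        have := (Subgroup.mem_normalizer_iff.1 (Subgroup.inv_mem _ hgQ) y).1 hy
        rwa [inv_inv] at this
      have h1 := (Subgroup.mem_normalizer_iff.1 hgI _).1 (hzc _ hy')
      rwa [show g * ⁅g⁻¹ * y * g, z⁆ * g⁻¹ = ⁅y, g * z * g⁻¹⁆ by
        rw [commutatorElement_def, commutatorElement_def]; group] at h1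
    intro g hgQ hgI
    refine Subgroup.mem_normalizer_iff.2 fun z => ⟨key g hgQ hgI z, fun hz => ?_⟩
    have := key g⁻¹ (Subgroup.inv_mem _ hgQ) (Subgroup.inv_mem _ hgI) _ hz
    simpa [mul_assoc] using this
  have hYQ : Y ≤ Q := Subgroup.map_subtype_le _
  have hPI : P ≤ Subgroup.normalizer (I : Set G) :=
    (c.derived_fix.trans (Subgroup.centralizer_le hI)).trans (Subgroup.centralizer_le_normalizer _)
  have hAnI : ¬ A ≤ I := fun h => by
    rw [Subgroup.relIndex_eq_one.2 h] at hIi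
    exact hq.out.one_lt.ne hIi
  have hQY : ¬ Q ≤ Y := fun h => hAnI (Subgroup.commutator_le.2 fun a ha b hb => ((hmemY b).1 (h hb)).2 a ha)
  have hQcard : A.relIndex Q = q ^ r := by
    refine (c.relIndex_layer hodd c.derived_le le_rfl c.P_Q c.x_Q).resolve_left fun h => hQY ?_
    exact (Subgroup.relIndex_eq_one.1 h).trans hAY
  have hYA : Y = A := by
    rcases c.relIndex_layer hodd hAY hYQ (fun g hg => hYn g (c.P_Q hg) (hPI hg))
      (hYn x c.x_Q hxI) with h | h
    · exact le_antisymm (Subgroup.relIndex_eq_one.1 h) hAY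
    · refine absurd ?_ hQY
      have h1 := Subgroup.relIndex_mul_relIndex A Y Q hAY hYQ
      rw [h, hQcard] at h1
      exact Subgroup.relIndex_eq_one.1 (Nat.eq_of_mul_eq_mul_left (pow_pos hq.out.pos r) (h1.trans (mul_one _).symm))
  obtain ⟨a, ha, haI⟩ := SetLike.not_le_iff_exists.1 hAnI
  have hcomQ : commutator ↥Q = A.subgroupOf Q := by
    refine Subgroup.map_injective Q.subtype_injective ?_
    rw [Subgroup.map_subtype_commutator, Subgroup.map_subgroupOf_eq_of_le c.derived_le]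
  have hspan : A.subgroupOf Q = I.subgroupOf Q ⊔ Subgroup.zpowers (⟨a, c.derived_le ha⟩ : Q) := by
    have h1 : A = I ⊔ Subgroup.zpowers a := by
      refine le_antisymm ?_ (sup_le hI (Subgroup.zpowers_le.2 ha))
      have h2 := Subgroup.relIndex_mul_relIndex I (I ⊔ Subgroup.zpowers a) A le_sup_left
        (sup_le hI (Subgroup.zpowers_le.2 ha))
      rw [hIi] at h2
      rcases hq.out.eq_one_or_self_of_dvd _ (Dvd.intro _ h2) with h | h
      · exact absurd (Subgroup.relIndex_eq_one.1 h (Subgroup.mem_sup_right (Subgroup.mem_zpowers a))) haI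
      · rw [h] at h2
        exact Subgroup.relIndex_eq_one.1 (Nat.eq_of_mul_eq_mul_left hq.out.pos (h2.trans (mul_one q).symm))
    refine Subgroup.map_injective Q.subtype_injective ?_
    rw [Subgroup.map_subgroupOf_eq_of_le c.derived_le, Subgroup.map_sup, Subgroup.map_subgroupOf_eq_of_le hIQ,
      MonoidHom.map_zpowers]
    exact h1
  have hex : Cfsg.IsExtraspecial q (↥Q ⧸ I.subgroupOf Q) :=
    ExtraFpf.isExtraspecial_quotient c.qgroupQ (C := A.subgroupOf Q) (K := I.subgroupOf Q) hspan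
      (fun h => haI (Subgroup.mem_subgroupOf.1 h)) (Subtype.ext (c.derived_pow a ha)) hcomQ.symm
      (fun z => Subgroup.mem_subgroupOf.2 (by rw [Subgroup.coe_pow]; exact c.pow_mem _ z.2))
      (Subgroup.map_injective Q.subtype_injective (by
        rw [Subgroup.map_subgroupOf_eq_of_le c.derived_le]; exact hYA))
  obtain ⟨n, -, hn⟩ := Extraspecial.exists_card hex
  have hidx : I.relIndex Q = q ^ (r + 1) := by
    rw [← Subgroup.relIndex_mul_relIndex I A Q hI c.derived_le, hIi, hQcard, pow_succ']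
  rw [← Subgroup.index_eq_card, show (I.subgroupOf Q).index = I.relIndex Q from rfl, hidx] at hn
  have h2 := Nat.pow_right_injective hq.out.two_le hn
  obtain ⟨m, hm⟩ := c.r_prime.odd_of_ne_two c.r_ne_two
  omega

theorem false [Group.IsSolvable G] (c : Config p q r V Q P x) (hodd : Odd (Nat.card G)) : False := by
  by_cases h : ⁅Q, Q⁆ = ⊥
  · exact c.false_of_abelian hodd h
  · exact c.false_of_nonabelian hodd h

end Config

end CfsgLib.PLengthComm
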