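import Cfsg.Agent.PLengthComm.Basic
import Cfsg.Agent.BenderUnique.Basic
import Cfsg.Agent.SolvTwoCore.Basic
import Cfsg.Agent.Hall.InvariantHall
import Cfsg.Agent.CoprimeAction.Invariant
import Cfsg.Agent.Uniqueness.Frattini
import Cfsg.Agent.OddFitting.Basic

/-!
The reduction of the theorem on the `p`-length of `[H, R]`: quotients, and the complement of the `p`-core.
-/

set_option autoImplicit false
set_option linter.unusedSectionVars false
set_option linter.style.haveILetI false

namespace CfsgLib.PLengthComm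

open scoped commutatorElement

universe u

variable {p : ℕ} [hp : Fact p.Prime]

/-- The hypotheses on `H`, `R` and `R₀`. -/
structure Hyp {G : Type u} [Group G] (H R R₀ : Subgroup G) : Prop where
  le_normalizer : R ≤ Subgroup.normalizer (H : Set G)
  coprime : (Nat.card H).Coprime (Nat.card R)
  le : R₀ ≤ R
  prime : (Nat.card R₀).Prime
  zgroup : IsZGroup ↥(H ⊓ Subgroup.centralizer (R₀ : Set G))

/-- The statement for all smaller groups. -/
def Below (p n : ℕ) : Prop :=
  ∀ (G : Type u) [Group G] [Finite G] [Group.IsSolvable G], Odd (Nat.card G) →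
    ∀ H R R₀ : Subgroup G, Nat.card H < n → Hyp H R R₀ → Cfsg.PLengthLE p 1 ↥⁅H, R⁆

variable {G : Type u} [Group G] [Finite G]

theorem Hyp.mono {H R R₀ H₁ : Subgroup G} (h : Hyp H R R₀) (hle : H₁ ≤ H)
    (hn : R ≤ Subgroup.normalizer (H₁ : Set G)) : Hyp H₁ R R₀ :=
  ⟨hn, h.coprime.coprime_dvd_left (Subgroup.card_dvd_of_le hle), h.le, h.prime,
    haveI := h.zgroup; IsZGroup.of_injective (Subgroup.inclusion_injective (inf_le_inf_right _ hle))⟩

theorem Hyp.cyclic {H R R₀ : Subgroup G} (h : Hyp H R R₀) {s : ℕ} [Fact s.Prime] {S : Subgroup G}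
    (hS : S ≤ H ⊓ Subgroup.centralizer (R₀ : Set G)) (hSp : IsPGroup s S) : IsCyclic S := by
  haveI := h.zgroup
  haveI : IsZGroup S := IsZGroup.of_injective (Subgroup.inclusion_injective hS)
  exact IsPGroup.isCyclic_of_isZGroup (G := S) (hSp.to_subgroup ⊤) |> fun h => by
    haveI := h
    exact isCyclic_of_surjective (Subgroup.topEquiv : (⊤ : Subgroup S) ≃* S).toMonoidHom (MulEquiv.surjective _)

theorem characteristic_map_subtype {X : Type u} [Group X] {K : Subgroup X} [hK : K.Characteristic] (C : Subgroup K)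
    [hC : C.Characteristic] : (C.map K.subtype).Characteristic := by
  refine Subgroup.characteristic_iff_map_le.2 fun φ => ?_
  rintro _ ⟨_, ⟨c, hc, rfl⟩, rfl⟩
  let e : K ≃* K := (φ.subgroupMap K).trans (MulEquiv.subgroupCongr (Subgroup.characteristic_iff_map_eq.1 hK φ))
  exact ⟨e c, (Subgroup.characteristic_iff_map_eq.1 hC e).le ⟨c, hc, rfl⟩, rfl⟩

/-- Quotients of `H` by nontrivial subgroups invariant under `R`. -/
theorem quotient_step [Group.IsSolvable G] {n : ℕ} (ih : Below.{u} p n) (hodd : Odd (Nat.card G))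
    {H R R₀ : Subgroup G} (h : Hyp H R R₀) (hn : Nat.card H = n) (hHR : ⁅H, R⁆ = H) (K : Subgroup H) [K.Normal]
    (hK : K ≠ ⊥) (hRK : R ≤ Subgroup.normalizer (K.map H.subtype : Set G)) : Cfsg.PLengthLE p 1 (↥H ⧸ K) := by
  set W := K.map H.subtype with hW
  set N := Subgroup.normalizer (W : Set G) with hN
  have hWH : W ≤ H := Subgroup.map_subtype_le _
  have hWsub : W.subgroupOf H = K := by
    rw [hW, Subgroup.subgroupOf, Subgroup.comap_map_eq_self_of_injective H.subtype_injective]
  have hHN : H ≤ N := by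
    rw [hN, ← Subgroup.normal_subgroupOf_iff_le_normalizer hWH, hWsub]
    infer_instance
  haveI : (W.subgroupOf N).Normal := Subgroup.normal_in_normalizer
  set f := QuotientGroup.mk' (W.subgroupOf N) with hf
  have hcard : ∀ S : Subgroup G, S ≤ N → Nat.card ((S.subgroupOf N).map f) = W.relIndex S := fun S hS => by
    rw [← Subgroup.relIndex_ker, hf, QuotientGroup.ker_mk', Subgroup.relIndex_subgroupOf hS]
  have hlt : Nat.card ((H.subgroupOf N).map f) < n := by
    rw [hcard H hHN, ← hn]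
    have h1 : W.relIndex H * Nat.card W = Nat.card H := by
      rw [mul_comm, ← Subgroup.relIndex_bot_left W, ← Subgroup.relIndex_bot_left H]
      exact Subgroup.relIndex_mul_relIndex _ _ _ bot_le hWH
    have h2 : 1 < Nat.card W := by
      rw [Subgroup.one_lt_card_iff_ne_bot, hW, Ne, Subgroup.map_eq_bot_iff_of_injective K H.subtype_injective]
      exact hK
    have h3 : 0 < W.relIndex H := Nat.pos_of_ne_zero Subgroup.index_ne_zero_of_finite
    nlinarith
  have hcopW : ∀ S : Subgroup G, S ≤ R → (Nat.card W).Coprime (Nat.card S) := fun S hS =>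
    (h.coprime.coprime_dvd_left (Subgroup.card_dvd_of_le hWH)).coprime_dvd_right (Subgroup.card_dvd_of_le hS)
  have hR₀N : R₀ ≤ N := h.le.trans hRK
  have hyp : Hyp ((H.subgroupOf N).map f) ((R.subgroupOf N).map f) ((R₀.subgroupOf N).map f) := by
    refine ⟨?_, ?_, Subgroup.map_mono fun g hg => h.le hg, ?_, ?_⟩
    · refine (Subgroup.map_mono ?_).trans (Subgroup.le_normalizer_map _)
      intro g hg
      refine Subgroup.mem_normalizer_iff.2 fun z => ?_
      simp only [Subgroup.mem_subgroupOf, Subgroup.coe_mul, Subgroup.coe_inv]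
      exact Subgroup.mem_normalizer_iff.1 (h.le_normalizer hg) z
    · rw [hcard H hHN, hcard R hRK]
      exact (h.coprime.coprime_dvd_left (by
        rw [← Subgroup.relIndex_bot_left H]
        exact Subgroup.relIndex_dvd_of_le_left H bot_le)).coprime_dvd_right (by
        rw [← Subgroup.relIndex_bot_left R]
        exact Subgroup.relIndex_dvd_of_le_left R bot_le)
    · rw [hcard R₀ hR₀N, ← Subgroup.inf_relIndex_right,
        CoprimeAction.inf_eq_bot_of_coprime (hcopW R₀ h.le), Subgroup.relIndex_bot_left]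
      exact h.prime
    · haveI := h.zgroup
      have hle : (H.subgroupOf N).map f ⊓ Subgroup.centralizer ((R₀.subgroupOf N).map f : Set _) ≤
          ((H ⊓ Subgroup.centralizer (R₀ : Set G)).subgroupOf N).map f := by
        rintro _ ⟨⟨y, hy, rfl⟩, hc⟩
        obtain ⟨k, hk, hky⟩ := CoprimeAction.exists_mem_centralizer (k := (y : G)) hR₀N (hcopW R₀ h.le).symm
          (Or.inr inferInstance) (fun a ha => by
            have har : f ⟨a, hR₀N ha⟩ ∈ (R₀.subgroupOf N).map f := ⟨⟨a, hR₀N ha⟩, ha, rfl⟩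
            have h1 : f (⟨a, hR₀N ha⟩ * y * (⟨a, hR₀N ha⟩ : N)⁻¹ * y⁻¹) = 1 := by
              rw [map_mul, map_mul, map_mul, map_inv, map_inv, Subgroup.mem_centralizer_iff.1 hc _ har,
                mul_inv_cancel_right, mul_inv_cancel]
            rw [hf, QuotientGroup.mk'_apply, QuotientGroup.eq_one_iff, Subgroup.mem_subgroupOf] at h1
            simpa using h1)
        refine ⟨⟨k * y, N.mul_mem (Subgroup.le_normalizer hk) y.2⟩,
          Subgroup.mem_inf.2 ⟨H.mul_mem (hWH hk) hy, hky⟩, ?_⟩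
        rw [show (⟨k * y, N.mul_mem (Subgroup.le_normalizer hk) y.2⟩ : N) = ⟨k, Subgroup.le_normalizer hk⟩ * y from rfl,
          map_mul, show f ⟨k, Subgroup.le_normalizer hk⟩ = 1 from (QuotientGroup.eq_one_iff _).2 hk, one_mul]
      haveI : IsZGroup ↥((H ⊓ Subgroup.centralizer (R₀ : Set G)).subgroupOf N) :=
        IsZGroup.of_injective (f := (Subgroup.subgroupOfEquivOfLe (inf_le_left.trans hHN)).toMonoidHom)
          (MulEquiv.injective _)
      haveI : IsZGroup ↥(((H ⊓ Subgroup.centralizer (R₀ : Set G)).subgroupOf N).map f) :=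
        IsZGroup.of_surjective (f.subgroupMap_surjective _)
      exact IsZGroup.of_injective (Subgroup.inclusion_injective hle)
  have hPL := ih (↥N ⧸ W.subgroupOf N) ((hodd.of_dvd_nat (Subgroup.card_subgroup_dvd_card N)).of_dvd_nat
    (Subgroup.card_quotient_dvd_card _)) _ _ _ hlt hyp
  have heq : ⁅(H.subgroupOf N).map f, (R.subgroupOf N).map f⁆ = (H.subgroupOf N).map f := by
    rw [← Subgroup.map_commutator]
    congr 1
    refine Subgroup.map_injective N.subtype_injective ?_
    rw [Subgroup.map_commutator, Subgroup.map_subgroupOf_eq_of_le hHN, Subgroup.map_subgroupOf_eq_of_le hRK, hHR]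
  rw [heq] at hPL
  set g := f.comp (Subgroup.inclusion hHN) with hg
  have hker : g.ker = K := by
    rw [hg, ← MonoidHom.comap_ker, hf, QuotientGroup.ker_mk', ← hWsub]
    rfl
  have hrange : g.range = (H.subgroupOf N).map f := by
    rw [hg, MonoidHom.range_comp, Subgroup.inclusion_range]
  exact pLength_of_surjective hPL (((MulEquiv.subgroupCongr hrange).symm.trans
    ((QuotientGroup.quotientKerEquivRange g).symm.trans (QuotientGroup.quotientMulEquivOfEq hker))).toMonoidHom)
    (MulEquiv.surjective _)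

/-- The data of a minimal counterexample after the first reductions. -/
structure Reduced (p : ℕ) (H R : Subgroup G) (V K Q : Subgroup G) : Prop where
  commV : IsMulCommutative V
  powV : ∀ v ∈ V, v ^ p = 1
  V_le : V ≤ H
  H_V : H ≤ Subgroup.normalizer (V : Set G)
  R_V : R ≤ Subgroup.normalizer (V : Set G)
  faith : H ⊓ Subgroup.centralizer (V : Set G) ≤ V
  K_le : K ≤ H
  disj : V ⊓ K = ⊥
  sup : V ⊔ K = H
  Q_le : Q ≤ K
  K_Q : K ≤ Subgroup.normalizer (Q : Set G)
  R_K : R ≤ Subgroup.normalizer (K : Set G)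
  R_Q : R ≤ Subgroup.normalizer (Q : Set G)
  fpfQ : V ⊓ Subgroup.centralizer (Q : Set G) = ⊥
  commK : ⁅K, R⁆ = K
  dvdK : p ∣ Nat.card K
  coreP : ∀ N : Subgroup G, N ≤ K → K ≤ Subgroup.normalizer (N : Set G) → IsPGroup p N → N = ⊥
  coreQ : ∀ N : Subgroup G, N ≤ K → K ≤ Subgroup.normalizer (N : Set G) → (Nat.card N).Coprime p → N ≤ Q
  Q_coprime : (Nat.card Q).Coprime p
  Q_ne : Q ≠ ⊥
  pcore : ∀ N : Subgroup G, N ≤ H → H ≤ Subgroup.normalizer (N : Set G) → IsPGroup p N → N ≤ V
  core : Cfsg.pPrimeCore p H = ⊥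

theorem exists_left_mul {K A : Subgroup G} (hAK : A ≤ Subgroup.normalizer (K : Set G)) {x : G} (hx : x ∈ K ⊔ A) :
    ∃ v ∈ K, ∃ a ∈ A, v * a = x := by
  obtain ⟨a, ha, v, hv, he⟩ := CoprimeAction.exists_mul_of_mem_sup hAK (sup_comm K A ▸ hx)
  exact ⟨a * v * a⁻¹, (Subgroup.mem_normalizer_iff.1 (hAK ha) v).1 hv, a, ha, by rw [← he]; group⟩

theorem mem_of_pow_of_coprime {V : Subgroup G} (_hV : IsPGroup p V) {x : G} {m : ℕ} (hm : m.Coprime p)
    (hxp : ∃ k, x ^ p ^ k = 1) (hx : x ^ m ∈ V) : x ∈ V := by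
  obtain ⟨k, hk⟩ := hxp
  exact OddFitting.mem_of_coprime_pow (H := V) (hm.pow_right k).symm hk hx

theorem exists_reduced [Group.IsSolvable G] {n : ℕ} (ih : Below.{u} p n) (hodd : Odd (Nat.card G))
    {H R R₀ : Subgroup G} (h : Hyp H R R₀) (hn : Nat.card H = n) (hHR : ⁅H, R⁆ = H)
    (hnot : ¬ Cfsg.PLengthLE p 1 H) : ∃ V K Q : Subgroup G, Reduced p H R V K Q := by
  have hchar : ∀ (C : Subgroup H) [C.Characteristic], R ≤ Subgroup.normalizer (C.map H.subtype : Set G) := fun C _ =>
    h.le_normalizer.trans (BenderUnique.normalizer_le_normalizer_map H C)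
  have hmapN : ∀ (C : Subgroup H) [C.Normal], H ≤ Subgroup.normalizer (C.map H.subtype : Set G) := fun C hC => by
    rw [← Subgroup.normal_subgroupOf_iff_le_normalizer (Subgroup.map_subtype_le _), Subgroup.subgroupOf,
      Subgroup.comap_map_eq_self_of_injective H.subtype_injective]
    exact hC
  have hcore : Cfsg.pPrimeCore p H = ⊥ := by
    by_contra hne
    haveI := PCore.pPrimeCore_characteristic p ↥H
    exact hnot (pLength_of_core (quotient_step ih hodd h hn hHR _ hne (hchar _)))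
  set Vs := Cfsg.pCore p H with hVs
  haveI hVchar : Vs.Characteristic := PCore.pCore_characteristic p ↥H
  have hVsp : IsPGroup p Vs := PCore.isPGroup_pCore p _
  have hCV : Subgroup.centralizer (Vs : Set H) ≤ Vs := SolvTwoCore.centralizer_pCore_le fun M hM hMc =>
    le_bot_iff.1 (hcore ▸ PCore.le_pPrimeCore hM hMc)
  set L3 := (Cfsg.upperPSeries p H 3).1 with hL3
  haveI hLchar : L3.Characteristic := upperPSeries_characteristic 3
  have hquot : ∀ (C : Subgroup H) [C.Normal], C ≤ Vs → R ≤ Subgroup.normalizer (C.map H.subtype : Set G) →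
      (∀ u ∈ L3, (orderOf u).Coprime p → (∀ v ∈ Vs, u * v * u⁻¹ * v⁻¹ ∈ C) → u = 1) → C = ⊥ := by
    intro C _ hCV hRC hfaith
    by_contra hne
    exact hnot (pLength_of_quotient hcore C hCV (quotient_step ih hodd h hn hHR C hne hRC) hfaith)
  have hfixV : ∀ u : H, (orderOf u).Coprime p → u ∈ Subgroup.centralizer (Vs : Set H) → u = 1 := by
    intro u huo hu
    obtain ⟨k, hk⟩ := IsPGroup.iff_orderOf.1 hVsp ⟨u, hCV hu⟩
    rw [Subgroup.orderOf_mk] at hk
    rw [← orderOf_eq_one_iff]
    exact Nat.eq_one_of_dvd_coprimes huo dvd_rfl (by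
      rw [hk] at huo ⊢
      rcases k.eq_zero_or_pos with rfl | hk'
      · exact one_dvd _
      · exact absurd huo (Nat.Prime.not_coprime_iff_dvd.2 ⟨p, hp.out, dvd_pow_self p hk'.ne', dvd_rfl⟩))
  -- the `p`-core is elementary abelian
  set Φ := (frattini Vs).map Vs.subtype with hΦ
  haveI hΦchar : Φ.Characteristic := characteristic_map_subtype _
  have hΦ1 : Φ = ⊥ := hquot Φ (Subgroup.map_subtype_le _) (hchar _) fun u _ huo htriv => by
    refine hfixV u huo ((CoprimeAction.le_centralizer_of_frattini ?_ ?_) (Subgroup.mem_zpowers u))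
    · rw [Nat.card_zpowers]
      obtain ⟨a, ha⟩ := (hVsp.to_subgroup (frattini Vs)).exists_card_eq
      rw [ha]
      exact huo.pow_right a
    · intro a ha v hv
      let T : Subgroup H :=
        { carrier := {a | ∀ v ∈ Vs, a * v * a⁻¹ * v⁻¹ ∈ Φ}
          one_mem' := fun v _ => by simp
          mul_mem' := fun {a b} ha hb v hv => by
            rw [show a * b * v * (a * b)⁻¹ * v⁻¹ = a * (b * v * b⁻¹ * v⁻¹) * a⁻¹ * (a * v * a⁻¹ * v⁻¹) by group]
            exact mul_mem ((inferInstance : Φ.Normal).conj_mem _ (hb v hv) a) (ha v hv)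
          inv_mem' := fun {a} ha v hv => by
            rw [show a⁻¹ * v * a⁻¹⁻¹ * v⁻¹ = a⁻¹ * (a * v * a⁻¹ * v⁻¹)⁻¹ * a⁻¹⁻¹ by group]
            exact (inferInstance : Φ.Normal).conj_mem _ (inv_mem (ha v hv)) _ }
      exact (Subgroup.zpowers_le (H := T)).2 htriv ha v hv
  have hfrat : frattini Vs = ⊥ := (Subgroup.map_eq_bot_iff_of_injective _ Vs.subtype_injective).1 hΦ1
  set V := Vs.map H.subtype with hV
  have hVH : V ≤ H := Subgroup.map_subtype_le _
  have hVp : IsPGroup p V := hVsp.map _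
  haveI hVc : IsMulCommutative V := by
    refine ⟨⟨fun a b => Subtype.ext ?_⟩⟩
    obtain ⟨a', ha', hae⟩ := a.2
    obtain ⟨b', hb', hbe⟩ := b.2
    have h1 : ⁅(⟨a', ha'⟩ : Vs), ⟨b', hb'⟩⁆ ∈ (⊥ : Subgroup Vs) := hfrat ▸
      CoprimeAction.commutator_le_frattini' hVsp (Subgroup.commutator_mem_commutator (Subgroup.mem_top _)
        (Subgroup.mem_top _))
    have h2 := congrArg (fun z : Vs => ((z : H) : G)) (commutatorElement_eq_one_iff_mul_comm.1 (Subgroup.mem_bot.1 h1))
    show (a : G) * b = b * a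
    rw [← hae, ← hbe]
    simpa using h2
  have hpowV : ∀ v ∈ V, v ^ p = 1 := by
    rintro _ ⟨v, hv, rfl⟩
    have h1 : (⟨v, hv⟩ : Vs) ^ p ∈ (⊥ : Subgroup Vs) := hfrat ▸ CoprimeAction.pow_mem_frattini hVsp _
    exact congrArg (fun z : Vs => ((z : H) : G)) (Subgroup.mem_bot.1 h1)
  have hHV : H ≤ Subgroup.normalizer (V : Set G) := hmapN Vs
  have hRV : R ≤ Subgroup.normalizer (V : Set G) := hchar Vs
  have hfaith : H ⊓ Subgroup.centralizer (V : Set G) ≤ V := by
    rintro g ⟨hgH, hgC⟩
    refine ⟨⟨g, hgH⟩, hCV (Subgroup.mem_centralizer_iff.2 fun v hv => Subtype.ext ?_), rfl⟩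
    exact Subgroup.mem_centralizer_iff.1 hgC _ ⟨v, hv, rfl⟩
  have hpcore : ∀ N : Subgroup G, N ≤ H → H ≤ Subgroup.normalizer (N : Set G) → IsPGroup p N → N ≤ V := by
    intro N hNH hN hNp
    rw [← Subgroup.map_subgroupOf_eq_of_le hNH]
    exact Subgroup.map_mono (PCore.le_pCore (Subgroup.normal_subgroupOf_of_le_normalizer hN)
      (hNp.of_equiv (Subgroup.subgroupOfEquivOfLe hNH).symm))
  -- the invariant complement in `O_{p,p'}(H)`
  set L := L3.map H.subtype with hL
  have hLH : L ≤ H := Subgroup.map_subtype_le _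
  have hRL : R ≤ Subgroup.normalizer (L : Set G) := hchar L3
  have hcopRL : (Nat.card R).Coprime (Nat.card L) := h.coprime.symm.coprime_dvd_right (Subgroup.card_dvd_of_le hLH)
  set π : Set ℕ := {q | q ≠ p} with hπ
  haveI : Group.IsSolvable L := inferInstance
  obtain ⟨⟨Q, hQ, hRQ⟩, -, -⟩ := Hall.coprime_invariant_hall R L hRL hcopRL inferInstance π
  have hQL : Q ≤ L := hQ.1
  have hQcop : (Nat.card Q).Coprime p := PCore.coprime_of_not_dvd fun hd => hQ.2.1 p hp.out hd rfl
  have hVsL : Vs ≤ L3 := le_upperThree hcore inferInstance fun x hx => ⟨1, Nat.coprime_one_left p, by rwa [pow_one]⟩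
  have hVL : V ≤ L := Subgroup.map_mono hVsL
  have hVrel : ¬ p ∣ V.relIndex L := by
    intro hd
    obtain ⟨S⟩ : Nonempty (Sylow p L) := inferInstance
    refine S.not_dvd_index (hd.trans (Subgroup.index_dvd_of_le fun x hx => ?_))
    obtain ⟨y, hy, hye⟩ := x.2
    obtain ⟨m, hm, hmV⟩ := pow_mem_pCore hcore hy
    refine Subgroup.mem_subgroupOf.2 (mem_of_pow_of_coprime hVp hm ?_ ?_)
    · obtain ⟨k, hk⟩ := S.isPGroup' ⟨x, hx⟩
      exact ⟨k, congrArg (fun z : (S : Subgroup L) => ((z : L) : G)) hk⟩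
    · exact ⟨y ^ m, hmV, by rw [map_pow, hye]⟩
  have hLeq : V ⊔ Q = L := by
    refine le_antisymm (sup_le hVL hQL) (Subgroup.relIndex_eq_one.1 ?_)
    refine Nat.eq_one_iff_not_exists_prime_dvd.2 fun q hq hd => ?_
    by_cases hqp : q = p
    · subst hqp
      exact hVrel (hd.trans (Subgroup.relIndex_dvd_of_le_left L le_sup_left))
    · exact hQ.2.2 q hq hqp (hd.trans (Subgroup.relIndex_dvd_of_le_left L le_sup_right))
  have hQne : Q ≠ ⊥ := by
    intro hQ1
    rw [hQ1, sup_bot_eq] at hLeq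
    have hLV : L3 ≤ Vs := by
      intro x hx
      obtain ⟨y, hy, hye⟩ := (show (x : G) ∈ V from hLeq ▸ ⟨x, hx, rfl⟩)
      rwa [H.subtype_injective hye] at hy
    have h1 : Cfsg.pPrimeCore p (↥H ⧸ Vs) = ⊥ := by
      have h2 : (Cfsg.pPrimeCore p (↥H ⧸ Vs)).comap (QuotientGroup.mk' Vs) ≤ L3 := by
        refine le_upperThree hcore inferInstance fun x hx =>
          ⟨Nat.card (Cfsg.pPrimeCore p (↥H ⧸ Vs)), PCore.pPrimeCore_coprime p _, ?_⟩
        show x ^ Nat.card ↥(Cfsg.pPrimeCore p (↥H ⧸ Vs)) ∈ Vs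
        rw [← QuotientGroup.eq_one_iff, ← QuotientGroup.mk'_apply, map_pow]
        exact orderOf_dvd_iff_pow_eq_one.1 (Subgroup.orderOf_dvd_natCard _ hx)
      rw [← Subgroup.map_comap_eq_self_of_surjective (QuotientGroup.mk'_surjective Vs)
        (Cfsg.pPrimeCore p (↥H ⧸ Vs)), eq_bot_iff]
      refine (Subgroup.map_mono (h2.trans hLV)).trans (le_of_eq ?_)
      rw [Subgroup.map_eq_bot_iff, QuotientGroup.ker_mk']
    rcases subsingleton_or_nontrivial (↥H ⧸ Vs) with hs | hnt
    · refine hnot (pLength_of_isPGroup fun x => ?_)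
      have hx : x ∈ Vs := (QuotientGroup.eq_one_iff x).1 (Subsingleton.elim _ _)
      obtain ⟨k, hk⟩ := hVsp ⟨x, hx⟩
      exact ⟨k, congrArg Subtype.val hk⟩
    · rcases PCore.cores_ne_bot_of_isSolvable (p := p) (G := ↥H ⧸ Vs) with h' | h'
      · exact h' PCore.pCore_quotient
      · exact h' h1
  set K := H ⊓ Subgroup.normalizer (Q : Set G) with hK
  have hQK : Q ≤ K := le_inf (hQL.trans hLH) Subgroup.le_normalizer
  have hVQ : V ⊓ Q = ⊥ := PCore.inf_eq_bot_of_isPGroup_of_coprime hVp hQcop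
  -- Frattini argument
  have hVK : V ⊔ K = H := by
    refine le_antisymm (sup_le hVH inf_le_left) fun g hg => ?_
    have hgL : L.map (MulAut.conj g).toMonoidHom = L :=
      Subgroup.mem_normalizer_iff_map_conj_eq.1 (hmapN L3 hg)
    have hQg : Cfsg.IsPiHallOf π (Q.map (MulAut.conj g).toMonoidHom) L := by
      refine ⟨(Subgroup.map_mono hQL).trans hgL.le, fun q hq hd => hQ.2.1 q hq ?_, fun q hq hqπ hd => hQ.2.2 q hq hqπ ?_⟩
      · rwa [Subgroup.card_map_of_injective (f := (MulAut.conj g).toMonoidHom) (MulAut.conj g).injective] at hd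
      · rw [← hgL, Subgroup.relIndex_map_map_of_injective _ _ (MulAut.conj g).injective] at hd
        exact hd
    obtain ⟨c, hc, hce⟩ := Hall.invariant_hall_conj (A := (⊥ : Subgroup G)) (K := L) bot_le
      (by rw [Subgroup.card_bot]; exact Nat.coprime_one_left _) hQ bot_le hQg bot_le
    have hcL : c ∈ L := (Subgroup.mem_inf.1 hc).1
    obtain ⟨v, hv, q, hq, hvq⟩ := exists_left_mul
      (show Q ≤ Subgroup.normalizer (V : Set G) from (hQL.trans hLH).trans hHV) (K := V) (A := Q)
      (show c ∈ V ⊔ Q by rw [hLeq]; exact hcL)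
    have hnorm : c⁻¹ * g ∈ Subgroup.normalizer (Q : Set G) := by
      rw [Subgroup.mem_normalizer_iff_map_conj_eq]
      show Q.map (MulAut.conj (c⁻¹ * g)).toMonoidHom = Q
      have h1 : Q.map (MulAut.conj c).toMonoidHom = Q.map (MulAut.conj g).toMonoidHom := hce
      rw [map_mul]
      show Q.map ((MulAut.conj c⁻¹).toMonoidHom.comp (MulAut.conj g).toMonoidHom) = Q
      rw [← Subgroup.map_map, ← h1, Subgroup.map_map]
      have : ((MulAut.conj c⁻¹).toMonoidHom.comp (MulAut.conj c).toMonoidHom) = MonoidHom.id G := by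
        refine MonoidHom.ext fun z => ?_
        show c⁻¹ * (c * z * c⁻¹) * (c⁻¹)⁻¹ = z
        group
      rw [this, Subgroup.map_id]
    have hcH : c ∈ H := hLH hcL
    rw [show g = c * (c⁻¹ * g) by group]
    refine Subgroup.mul_mem _ ?_ (Subgroup.mem_sup_right ⟨H.mul_mem (H.inv_mem hcH) hg, hnorm⟩)
    rw [← hvq]
    exact Subgroup.mul_mem _ (Subgroup.mem_sup_left hv) (Subgroup.mem_sup_right (hQK hq))
  have hVKC : V ⊓ K ≤ V ⊓ Subgroup.centralizer (Q : Set G) := by
    rintro v ⟨hv, hvH, hvN⟩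
    refine ⟨hv, Subgroup.mem_centralizer_iff.2 fun q hq => ?_⟩
    have h1 : v * q * v⁻¹ * q⁻¹ ∈ (⊥ : Subgroup G) := by
      rw [← hVQ]
      refine ⟨?_, Q.mul_mem ((Subgroup.mem_normalizer_iff.1 hvN q).1 hq) (Q.inv_mem hq)⟩
      rw [show v * q * v⁻¹ * q⁻¹ = v * (q * v⁻¹ * q⁻¹) by group]
      exact V.mul_mem hv ((Subgroup.mem_normalizer_iff.1 (hHV (hLH (hQL hq))) _).1 (V.inv_mem hv))
    rw [Subgroup.mem_bot, mul_inv_eq_one, mul_inv_eq_iff_eq_mul] at h1
    exact h1.symm
  -- the fixed points of the complement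
  have hW : V ⊓ Subgroup.centralizer (Q : Set G) = ⊥ := by
    set W := V ⊓ Subgroup.centralizer (Q : Set G) with hWdef
    have hWH : W ≤ H := inf_le_left.trans hVH
    have hHW : H ≤ Subgroup.normalizer (W : Set G) := by
      rw [← hVK]
      refine sup_le (((Subgroup.le_centralizer V).trans (Subgroup.centralizer_le inf_le_left)).trans
        (Subgroup.centralizer_le_normalizer _)) ?_
      intro k hk
      exact Subgroup.inf_normalizer_le_normalizer_inf ⟨hHV (Subgroup.mem_inf.1 hk).1,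
        Components.normalizer_le_normalizer_centralizer _ (Subgroup.mem_inf.1 hk).2⟩
    haveI : (W.subgroupOf H).Normal := Subgroup.normal_subgroupOf_of_le_normalizer hHW
    have hRW : R ≤ Subgroup.normalizer (((W.subgroupOf H).map H.subtype : Subgroup G) : Set G) := by
      rw [Subgroup.map_subgroupOf_eq_of_le hWH]
      exact fun r hr => Subgroup.inf_normalizer_le_normalizer_inf ⟨hRV hr,
        Components.normalizer_le_normalizer_centralizer _ (hRQ hr)⟩
    have hWs : W.subgroupOf H = ⊥ := by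
      refine hquot _ (fun x hx => ?_) hRW fun u hu huo htriv => hfixV u huo ?_
      · obtain ⟨y, hy, hye⟩ := (Subgroup.mem_inf.1 (Subgroup.mem_subgroupOf.1 hx)).1
        rwa [H.subtype_injective hye] at hy
      have huW : (u : G) ∈ Subgroup.centralizer (W : Set G) := by
        obtain ⟨v, hv, q, hq, hvq⟩ := exists_left_mul
          (show Q ≤ Subgroup.normalizer (V : Set G) from (hQL.trans hLH).trans hHV) (K := V) (A := Q)
          (show (u : G) ∈ V ⊔ Q by rw [hLeq]; exact ⟨u, hu, rfl⟩)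
        rw [← hvq]
        refine Subgroup.mul_mem _ ((Subgroup.le_centralizer V).trans (Subgroup.centralizer_le inf_le_left) hv) ?_
        exact Subgroup.mem_centralizer_iff.2 fun w hw =>
          (Subgroup.mem_centralizer_iff.1 (Subgroup.mem_inf.1 hw).2 q hq).symm
      have h1 : Subgroup.zpowers (u : G) ≤ Subgroup.centralizer (V : Set G) := by
        refine CoprimeAction.le_centralizer_of_chain (N := W) ?_ (Subgroup.zpowers_le.2 huW) ?_
        · rw [Nat.card_zpowers, Subgroup.orderOf_coe]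
          obtain ⟨a, ha⟩ := (hVp.to_le inf_le_left : IsPGroup p W).exists_card_eq
          rw [ha]
          exact huo.pow_right a
        · rw [Subgroup.commutator_le]
          intro v hv z hz
          let T : Subgroup G :=
            { carrier := {z | z ∈ Subgroup.normalizer (W : Set G) ∧ ∀ v ∈ V, ⁅v, z⁆ ∈ W}
              one_mem' := ⟨one_mem _, fun v _ => by simp [commutatorElement_def]⟩
              mul_mem' := fun {a b} ha hb => ⟨mul_mem ha.1 hb.1, fun v hv => by
                rw [show ⁅v, a * b⁆ = ⁅v, a⁆ * (a * ⁅v, b⁆ * a⁻¹) by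
                  rw [commutatorElement_def, commutatorElement_def, commutatorElement_def]; group]
                exact W.mul_mem (ha.2 v hv) ((Subgroup.mem_normalizer_iff.1 ha.1 _).1 (hb.2 v hv))⟩
              inv_mem' := fun {a} ha => ⟨inv_mem ha.1, fun v hv => by
                rw [show ⁅v, a⁻¹⁆ = a⁻¹ * ⁅v, a⁆⁻¹ * a⁻¹⁻¹ by
                  rw [commutatorElement_def, commutatorElement_def]; group]
                exact (Subgroup.mem_normalizer_iff.1 (inv_mem ha.1) _).1 (W.inv_mem (ha.2 v hv))⟩ }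
          refine ((Subgroup.zpowers_le (H := T)).2 ⟨hHW u.2, fun v hv => ?_⟩ hz).2 v hv
          obtain ⟨v', hv', rfl⟩ := hv
          have h2 := W.inv_mem (Subgroup.mem_subgroupOf.1 (htriv v' hv'))
          simp only [Subgroup.coe_mul, Subgroup.coe_inv] at h2
          rwa [show ((u : G) * (v' : G) * (u : G)⁻¹ * (v' : G)⁻¹)⁻¹ = ⁅H.subtype v', (u : G)⁆ by
            rw [commutatorElement_def, Subgroup.subtype_apply]; group] at h2
      refine Subgroup.mem_centralizer_iff.2 fun v hv => Subtype.ext ?_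
      exact Subgroup.mem_centralizer_iff.1 (h1 (Subgroup.mem_zpowers _)) _ ⟨v, hv, rfl⟩
    rw [← Subgroup.map_subgroupOf_eq_of_le hWH, hWs, Subgroup.map_bot]
  have hdisj : V ⊓ K = ⊥ := le_bot_iff.1 (hW ▸ hVKC)
  have hKN : K ≤ Subgroup.normalizer (V : Set G) := inf_le_left.trans hHV
  have hRK : R ≤ Subgroup.normalizer (K : Set G) := fun r hr =>
    Subgroup.inf_normalizer_le_normalizer_inf ⟨h.le_normalizer hr, Subgroup.le_normalizer (hRQ hr)⟩
  have hKV : ∀ k ∈ K, k ∈ V → k = 1 := fun k hk hkV => by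
    rw [← Subgroup.mem_bot, ← hdisj]
    exact ⟨hkV, hk⟩
  have hcoreP : ∀ N : Subgroup G, N ≤ K → K ≤ Subgroup.normalizer (N : Set G) → IsPGroup p N → N = ⊥ := by
    intro N hNK hKN' hNp
    have hNV : N ≤ Subgroup.normalizer (V : Set G) := hNK.trans hKN
    have hle : V ⊔ N ≤ V := by
      refine hpcore _ (sup_le hVH (hNK.trans inf_le_left)) ?_ (hVp.to_sup_of_normal_left' hNp hNV)
      rw [← hVK]
      exact sup_le (le_sup_left.trans Subgroup.le_normalizer) ((le_inf hKN hKN').trans fun g hg =>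
        Subgroup.mem_normalizer_iff_map_conj_eq.2 (show (V ⊔ N).map (MulAut.conj g).toMonoidHom = V ⊔ N by
          rw [Subgroup.map_sup]
          exact congrArg₂ _ (Subgroup.mem_normalizer_iff_map_conj_eq.1 (Subgroup.mem_inf.1 hg).1)
            (Subgroup.mem_normalizer_iff_map_conj_eq.1 (Subgroup.mem_inf.1 hg).2)))
    exact le_bot_iff.1 fun x hx => Subgroup.mem_bot.2 (hKV x (hNK hx) (hle (Subgroup.mem_sup_right hx)))
  have hcoreQ : ∀ N : Subgroup G, N ≤ K → K ≤ Subgroup.normalizer (N : Set G) → (Nat.card N).Coprime p → N ≤ Q := by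
    intro N hNK hKN' hNc
    have hNV : N ≤ Subgroup.normalizer (V : Set G) := hNK.trans hKN
    have hVN : V ⊔ N ≤ L := by
      have hVNH : V ⊔ N ≤ H := sup_le hVH (hNK.trans inf_le_left)
      have hnorm : H ≤ Subgroup.normalizer ((V ⊔ N : Subgroup G) : Set G) := by
        rw [← hVK]
        exact sup_le (le_sup_left.trans Subgroup.le_normalizer) ((le_inf hKN hKN').trans fun g hg =>
          Subgroup.mem_normalizer_iff_map_conj_eq.2 (show (V ⊔ N).map (MulAut.conj g).toMonoidHom = V ⊔ N by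
            rw [Subgroup.map_sup]
            exact congrArg₂ _ (Subgroup.mem_normalizer_iff_map_conj_eq.1 (Subgroup.mem_inf.1 hg).1)
              (Subgroup.mem_normalizer_iff_map_conj_eq.1 (Subgroup.mem_inf.1 hg).2)))
      rw [← Subgroup.map_subgroupOf_eq_of_le hVNH]
      refine Subgroup.map_mono (le_upperThree hcore (Subgroup.normal_subgroupOf_of_le_normalizer hnorm)
        fun x hx => ⟨Nat.card N, hNc, ?_⟩)
      obtain ⟨v, hv, m, hm, hvm⟩ := exists_left_mul hNV (K := V) (A := N)
        (Subgroup.mem_subgroupOf.1 hx)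
      obtain ⟨v', hv', hve⟩ := hv
      have hxe : x = v' * ⟨m, hNK.trans inf_le_left hm⟩ := Subtype.ext (by
        rw [← hvm, ← hve]; rfl)
      show x ^ Nat.card N ∈ Vs
      rw [← QuotientGroup.eq_one_iff, ← QuotientGroup.mk'_apply, map_pow, hxe, map_mul,
        show QuotientGroup.mk' Vs v' = 1 from (QuotientGroup.eq_one_iff v').2 hv', one_mul, ← map_pow]
      rw [show (⟨m, hNK.trans inf_le_left hm⟩ : H) ^ Nat.card N = 1 from Subtype.ext (by
        rw [Subgroup.coe_pow]
        exact orderOf_dvd_iff_pow_eq_one.1 (Subgroup.orderOf_dvd_natCard _ hm)), map_one]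
    intro x hx
    obtain ⟨v, hv, q, hq, hvq⟩ := exists_left_mul
      (show Q ≤ Subgroup.normalizer (V : Set G) from (hQL.trans hLH).trans hHV) (K := V) (A := Q)
      (show x ∈ V ⊔ Q by rw [hLeq]; exact hVN (Subgroup.mem_sup_right hx))
    have hv1 : v = 1 := hKV v (by
      rw [show v = x * q⁻¹ by rw [← hvq]; group]
      exact K.mul_mem (hNK hx) (K.inv_mem (hQK hq))) hv
    rw [← hvq, hv1, one_mul]
    exact hq
  refine ⟨V, K, Q, hVc, hpowV, hVH, hHV, hRV, hfaith, inf_le_left, hdisj, hVK, hQK, inf_le_right, hRK, hRQ, hW, ?_, ?_,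
    hcoreP, hcoreQ, hQcop, hQne, hpcore, hcore⟩
  · -- `K = [K, R]`
    refine le_antisymm (CoprimeAction.commutator_le_of_normalizer hRK) fun k hk => ?_
    set K₁ : Subgroup G := ⁅K, R⁆ with hK₁
    have hK₁K : K₁ ≤ K := CoprimeAction.commutator_le_of_normalizer hRK
    have hle : H ≤ V ⊔ K₁ := by
      have hVK₁ : K ≤ Subgroup.normalizer ((V ⊔ K₁ : Subgroup G) : Set G) :=
        (le_inf hKN CoprimeAction.self_le_normalizer_commutator).trans fun g hg =>
          Subgroup.mem_normalizer_iff_map_conj_eq.2 (show (V ⊔ K₁).map (MulAut.conj g).toMonoidHom = V ⊔ K₁ by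
            rw [Subgroup.map_sup]
            exact congrArg₂ _ (Subgroup.mem_normalizer_iff_map_conj_eq.1 (Subgroup.mem_inf.1 hg).1)
              (Subgroup.mem_normalizer_iff_map_conj_eq.1 (Subgroup.mem_inf.1 hg).2))
      rw [← hHR, Subgroup.commutator_le]
      intro g hg r hr
      obtain ⟨v, hv, k', hk', rfl⟩ := exists_left_mul hKN (K := V) (A := K)
        (show g ∈ V ⊔ K by rw [hVK]; exact hg)
      have e : ⁅v * k', r⁆ = v * (⁅k', r⁆ * (r * v⁻¹ * r⁻¹)) := by
        rw [commutatorElement_def, commutatorElement_def]; group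
      rw [e]
      exact Subgroup.mul_mem _ (Subgroup.mem_sup_left hv) (Subgroup.mul_mem _
        (Subgroup.mem_sup_right (Subgroup.commutator_mem_commutator hk' hr))
        (Subgroup.mem_sup_left ((Subgroup.mem_normalizer_iff.1 (hRV hr) _).1 (V.inv_mem hv))))
    obtain ⟨v, hv, k₁, hk₁, hvk⟩ := exists_left_mul (hK₁K.trans hKN) (K := V) (A := K₁)
      (hle ((Subgroup.mem_inf.1 hk).1))
    have hv1 : v = 1 := hKV v (by
      rw [show v = k * k₁⁻¹ by rw [← hvk]; group]
      exact K.mul_mem hk (K.inv_mem (hK₁K hk₁))) hv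
    rw [← hvk, hv1, one_mul]
    exact hk₁
  · -- `p` divides `|K|`
    by_contra hd
    refine hnot (pLength_of_normal_sylow (N := Vs) hVsp fun hi => hd ?_)
    have h1 : V.relIndex H = Vs.index := by
      rw [hV, Subgroup.relIndex, Subgroup.subgroupOf, Subgroup.comap_map_eq_self_of_injective H.subtype_injective]
    have h2 : V.relIndex H ∣ Nat.card K := by
      rw [← hVK]
      have hKN' : K ≤ Subgroup.normalizer (V : Set G) := hKN
      haveI : (V.subgroupOf (V ⊔ K)).Normal :=
        Subgroup.normal_subgroupOf_of_le_normalizer (sup_le Subgroup.le_normalizer hKN')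
      rw [Subgroup.relIndex, show V.subgroupOf (V ⊔ K) = V.subgroupOf (V ⊔ K) from rfl]
      rw [Subgroup.index_eq_card]
      exact Subgroup.card_dvd_of_surjective
        ((QuotientGroup.mk' (V.subgroupOf (V ⊔ K))).comp (Subgroup.inclusion (le_sup_right : K ≤ V ⊔ K))) (by
          intro z
          obtain ⟨⟨g, hg⟩, rfl⟩ := QuotientGroup.mk'_surjective _ z
          obtain ⟨v, hv, k, hk, rfl⟩ := exists_left_mul hKN' (K := V) (A := K) hg
          refine ⟨⟨k, hk⟩, ?_⟩
          show QuotientGroup.mk' (V.subgroupOf (V ⊔ K)) (Subgroup.inclusion le_sup_right ⟨k, hk⟩) = _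
          rw [QuotientGroup.mk'_apply, QuotientGroup.mk'_apply, QuotientGroup.eq]
          refine Subgroup.mem_subgroupOf.2 ?_
          show k⁻¹ * (v * k) ∈ V
          have := (Subgroup.mem_normalizer_iff.1 (Subgroup.inv_mem _ (hKN' hk)) v).1 hv
          simpa [mul_assoc] using this)
    exact (h1 ▸ hi).trans h2

end CfsgLib.PLengthComm
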